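import Mathlib

set_option autoImplicit false

namespace Cfsg.Agent.H50.SpExt

open Matrix

section Key

variable {F K : Type*} [Field F] [Field K] [Algebra F K]
variable {κ : Type*} [Fintype κ] [DecidableEq κ] (b : Module.Basis κ F K)

theorem trace_sum_left (y z : K) :
    ∑ i, b.repr y i * Algebra.trace F K (b i * z) = Algebra.trace F K (y * z) := by
  conv_rhs => rw [← b.sum_repr y]
  rw [Finset.sum_mul, map_sum]
  simp

/-- The regular representation is self-adjoint for the trace form. -/
theorem leftMul_transpose_mul_trace (x : K) :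
    (Algebra.leftMulMatrix b x)ᵀ * Algebra.traceMatrix F b =
      Algebra.traceMatrix F b * Algebra.leftMulMatrix b x := by
  ext j k
  simp only [Matrix.mul_apply, Matrix.transpose_apply, Algebra.traceMatrix_apply,
    Algebra.traceForm_apply, Algebra.leftMulMatrix_eq_repr_mul]
  rw [trace_sum_left]
  have h2 : ∑ i, Algebra.trace F K (b j * b i) * b.repr (x * b k) i =
      ∑ i, b.repr (x * b k) i * Algebra.trace F K (b i * b j) := by
    refine Finset.sum_congr rfl fun i _ => ?_
    rw [mul_comm, mul_comm (b j)]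
  rw [h2, trace_sum_left]
  congr 1; ring

theorem traceMatrix_transpose : (Algebra.traceMatrix F b)ᵀ = Algebra.traceMatrix F b := by
  ext i j
  simp only [Matrix.transpose_apply, Algebra.traceMatrix_apply, Algebra.traceForm_apply, mul_comm]

theorem traceMatrix_isUnit_det [Algebra.IsSeparable F K] :
    IsUnit (Algebra.traceMatrix F b).det := by
  rw [isUnit_iff_ne_zero, Algebra.traceMatrix_of_basis]
  exact det_traceForm_ne_zero b

end Key

section Blow

variable {F K : Type*} [Field F] [Field K] [Algebra F K]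
variable {κ : Type*} [Fintype κ] [DecidableEq κ] (b : Module.Basis κ F K)
variable (n : Type*) [Fintype n] [DecidableEq n]

/-- Entrywise blow-up of a matrix over `K` to a matrix over `F` through the regular
representation. -/
noncomputable def blow : Matrix n n K →+* Matrix (n × κ) (n × κ) F :=
  (Matrix.compRingEquiv n κ F : Matrix n n (Matrix κ κ F) →+* Matrix (n × κ) (n × κ) F).comp
    (Algebra.leftMulMatrix b).toRingHom.mapMatrix

theorem blow_apply (A : Matrix n n K) (i j : n) (k l : κ) :
    blow b n A (i, k) (j, l) = Algebra.leftMulMatrix b (A i j) k l := rfl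

theorem blow_injective : Function.Injective (blow b n) := by
  intro A A' h
  ext i j
  apply Algebra.leftMulMatrix_injective b
  ext k l
  have := congrFun (congrFun h (i, k)) (j, l)
  exact this

/-- The block-scalar matrix with the trace matrix on each diagonal block. -/
noncomputable def gHat : Matrix (n × κ) (n × κ) F :=
  Matrix.kroneckerMap (· * ·) (1 : Matrix n n F) (Algebra.traceMatrix F b)

/-- Its inverse. -/
noncomputable def gHatInv : Matrix (n × κ) (n × κ) F :=
  Matrix.kroneckerMap (· * ·) (1 : Matrix n n F) (Algebra.traceMatrix F b)⁻¹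

theorem gHat_mul_gHatInv [Algebra.IsSeparable F K] : gHat b n * gHatInv b n = 1 := by
  rw [gHat, gHatInv, ← Matrix.mul_kronecker_mul, Matrix.mul_one,
    Matrix.mul_nonsing_inv _ (traceMatrix_isUnit_det b), Matrix.one_kronecker_one]

theorem gHatInv_mul_gHat [Algebra.IsSeparable F K] : gHatInv b n * gHat b n = 1 := by
  rw [gHat, gHatInv, ← Matrix.mul_kronecker_mul, Matrix.mul_one,
    Matrix.nonsing_inv_mul _ (traceMatrix_isUnit_det b), Matrix.one_kronecker_one]

theorem gHat_transpose : (gHat b n)ᵀ = gHat b n := by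
  rw [gHat, ← Matrix.kroneckerMap_transpose, Matrix.transpose_one, traceMatrix_transpose]

theorem gHatInv_transpose : (gHatInv b n)ᵀ = gHatInv b n := by
  rw [gHatInv, ← Matrix.kroneckerMap_transpose, Matrix.transpose_one, Matrix.transpose_nonsing_inv,
    traceMatrix_transpose]

theorem blow_transpose_mul_gHat (A : Matrix n n K) :
    (blow b n A)ᵀ * gHat b n = gHat b n * blow b n Aᵀ := by
  ext ⟨i, k⟩ ⟨j, l⟩
  have key := congrFun (congrFun (leftMul_transpose_mul_trace b (A j i)) k) l
  simp only [Matrix.mul_apply, Matrix.transpose_apply] at key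
  simp only [Matrix.mul_apply, Matrix.transpose_apply, Fintype.sum_prod_type, gHat,
    Matrix.kroneckerMap_apply, Matrix.one_apply, blow_apply, mul_ite, ite_mul, mul_zero, zero_mul,
    one_mul]
  rw [Finset.sum_eq_single j (fun x _ hx => by simp [hx]) (by simp),
    Finset.sum_eq_single i (fun x _ hx => by simp [Ne.symm hx]) (by simp)]
  simpa using key

theorem blow_transpose [Algebra.IsSeparable F K] (A : Matrix n n K) :
    (blow b n A)ᵀ = gHat b n * blow b n Aᵀ * gHatInv b n := by
  rw [← blow_transpose_mul_gHat, Matrix.mul_assoc, gHat_mul_gHatInv, Matrix.mul_one]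

end Blow

section Block

variable {F K : Type*} [Field F] [Field K] [Algebra F K]
variable {κ : Type*} [Fintype κ] [DecidableEq κ] (b : Module.Basis κ F K)
variable (l : Type*) [Fintype l] [DecidableEq l]

/-- Blow-up on block matrices, reindexed to block shape. -/
noncomputable def bigBlow :
    Matrix (l ⊕ l) (l ⊕ l) K →+* Matrix ((l × κ) ⊕ (l × κ)) ((l × κ) ⊕ (l × κ)) F :=
  (Matrix.reindexRingEquiv F (Equiv.sumProdDistrib l l κ) :
    Matrix ((l ⊕ l) × κ) ((l ⊕ l) × κ) F →+* _).comp (blow b (l ⊕ l))

theorem bigBlow_fromBlocks (P Q R S : Matrix l l K) :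
    bigBlow b l (fromBlocks P Q R S) =
      fromBlocks (blow b l P) (blow b l Q) (blow b l R) (blow b l S) := by
  ext (⟨i, k⟩ | ⟨i, k⟩) (⟨j, m⟩ | ⟨j, m⟩) <;> rfl

theorem bigBlow_injective : Function.Injective (bigBlow b l) := by
  intro A A' h
  apply blow_injective b (l ⊕ l)
  exact (Matrix.reindexRingEquiv F (Equiv.sumProdDistrib l l κ)).injective h

theorem bigBlow_J : bigBlow b l (J l K) = J (l × κ) F := by
  rw [J, bigBlow_fromBlocks, J]
  simp only [map_zero, map_neg, map_one]

/-- `diag(Ĝ, Ĝ)`. -/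
noncomputable def g2 : Matrix ((l × κ) ⊕ (l × κ)) ((l × κ) ⊕ (l × κ)) F :=
  fromBlocks (gHat b l) 0 0 (gHat b l)

/-- `diag(Ĝ⁻¹, Ĝ⁻¹)`. -/
noncomputable def g2Inv : Matrix ((l × κ) ⊕ (l × κ)) ((l × κ) ⊕ (l × κ)) F :=
  fromBlocks (gHatInv b l) 0 0 (gHatInv b l)

/-- `diag(1, Ĝ)`. -/
noncomputable def dMat : Matrix ((l × κ) ⊕ (l × κ)) ((l × κ) ⊕ (l × κ)) F :=
  fromBlocks 1 0 0 (gHat b l)

/-- `diag(1, Ĝ⁻¹)`. -/
noncomputable def dInv : Matrix ((l × κ) ⊕ (l × κ)) ((l × κ) ⊕ (l × κ)) F :=
  fromBlocks 1 0 0 (gHatInv b l)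

theorem dMat_transpose : (dMat b l)ᵀ = dMat b l := by
  simp [dMat, fromBlocks_transpose, gHat_transpose]

theorem dInv_transpose : (dInv b l)ᵀ = dInv b l := by
  simp [dInv, fromBlocks_transpose, gHatInv_transpose]

variable [Algebra.IsSeparable F K]

theorem dMat_mul_dInv : dMat b l * dInv b l = 1 := by
  simp [dMat, dInv, fromBlocks_multiply, gHat_mul_gHatInv, fromBlocks_one]

theorem dInv_mul_dMat : dInv b l * dMat b l = 1 := by
  simp [dMat, dInv, fromBlocks_multiply, gHatInv_mul_gHat, fromBlocks_one]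

theorem bigBlow_transpose (A : Matrix (l ⊕ l) (l ⊕ l) K) :
    (bigBlow b l A)ᵀ = g2 b l * bigBlow b l Aᵀ * g2Inv b l := by
  rw [← fromBlocks_toBlocks A, bigBlow_fromBlocks, fromBlocks_transpose, fromBlocks_transpose,
    bigBlow_fromBlocks, g2, g2Inv, fromBlocks_multiply, fromBlocks_multiply]
  simp [blow_transpose]

theorem j_one : dInv b l * J (l × κ) F * dInv b l * g2 b l = J (l × κ) F := by
  simp [dInv, g2, J, fromBlocks_multiply, gHatInv_mul_gHat]

theorem j_two : dMat b l * J (l × κ) F * g2Inv b l * dMat b l = J (l × κ) F := by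
  simp [dMat, g2Inv, J, fromBlocks_multiply, gHatInv_mul_gHat, gHat_mul_gHatInv]

/-- The embedding on matrices. -/
noncomputable def phi (A : Matrix (l ⊕ l) (l ⊕ l) K) :
    Matrix ((l × κ) ⊕ (l × κ)) ((l × κ) ⊕ (l × κ)) F :=
  dMat b l * bigBlow b l A * dInv b l

theorem phi_one : phi b l 1 = 1 := by
  rw [phi, map_one, Matrix.mul_one, dMat_mul_dInv]

theorem phi_mul (A A' : Matrix (l ⊕ l) (l ⊕ l) K) : phi b l (A * A') = phi b l A * phi b l A' := by
  simp only [phi, map_mul]
  calc dMat b l * (bigBlow b l A * bigBlow b l A') * dInv b l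
      = dMat b l * bigBlow b l A * 1 * bigBlow b l A' * dInv b l := by
        simp only [Matrix.mul_assoc, Matrix.one_mul]
    _ = dMat b l * bigBlow b l A * dInv b l * (dMat b l * bigBlow b l A' * dInv b l) := by
        rw [← dInv_mul_dMat b l]; simp only [Matrix.mul_assoc]

theorem phi_injective : Function.Injective (phi b l) := by
  intro A A' h
  apply bigBlow_injective b l
  have h2 : dInv b l * phi b l A * dMat b l = dInv b l * phi b l A' * dMat b l := by rw [h]
  simp only [phi] at h2
  have e : ∀ X : Matrix ((l × κ) ⊕ (l × κ)) ((l × κ) ⊕ (l × κ)) F,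
      dInv b l * (dMat b l * X * dInv b l) * dMat b l = X := by
    intro X
    calc dInv b l * (dMat b l * X * dInv b l) * dMat b l
        = (dInv b l * dMat b l) * X * (dInv b l * dMat b l) := by simp only [Matrix.mul_assoc]
      _ = X := by rw [dInv_mul_dMat, Matrix.one_mul, Matrix.mul_one]
  rwa [e, e] at h2

theorem phi_mem {A : Matrix (l ⊕ l) (l ⊕ l) K} (hA : A ∈ symplecticGroup l K) :
    phi b l A ∈ symplecticGroup (l × κ) F := by
  rw [SymplecticGroup.mem_iff] at hA ⊢
  calc phi b l A * J (l × κ) F * (phi b l A)ᵀ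
      = dMat b l * bigBlow b l A * (dInv b l * J (l × κ) F * dInv b l * g2 b l) *
          bigBlow b l Aᵀ * g2Inv b l * dMat b l := by
        simp only [phi, Matrix.transpose_mul, dMat_transpose, dInv_transpose, bigBlow_transpose,
          Matrix.mul_assoc]
    _ = dMat b l * bigBlow b l (A * J l K * Aᵀ) * g2Inv b l * dMat b l := by
        rw [j_one, map_mul, map_mul, bigBlow_J]
        simp only [Matrix.mul_assoc]
    _ = J (l × κ) F := by rw [hA, bigBlow_J, j_two]

/-- The embedding `Sp_{2l}(K) → Sp_{2(l × κ)}(F)` for a finite separable extension `K/F` with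
basis indexed by `κ`. -/
noncomputable def spHom : ↥(symplecticGroup l K) →* ↥(symplecticGroup (l × κ) F) where
  toFun A := ⟨phi b l A.1, phi_mem b l A.2⟩
  map_one' := Subtype.ext (phi_one b l)
  map_mul' A A' := Subtype.ext (phi_mul b l A.1 A'.1)

theorem spHom_injective : Function.Injective (spHom b l) := by
  intro A A' h
  apply Subtype.ext
  apply phi_injective b l
  exact congrArg Subtype.val h

end Block

section Reindex

variable {R : Type*} [CommRing R] {l l' : Type*} [Fintype l] [DecidableEq l] [Fintype l']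
  [DecidableEq l']

theorem reindex_J (e : l ≃ l') :
    Matrix.reindex (e.sumCongr e) (e.sumCongr e) (J l R) = J l' R := by
  ext (i | i) (j | j) <;> simp [J, Matrix.one_apply]

/-- Reindexing the symplectic group. -/
def spReindex (e : l ≃ l') : ↥(symplecticGroup l R) →* ↥(symplecticGroup l' R) where
  toFun A := ⟨Matrix.reindexRingEquiv R (e.sumCongr e) A.1, by
    have hA := A.2
    rw [SymplecticGroup.mem_iff] at hA ⊢
    rw [← reindex_J (R := R) e]
    have h1 : (Matrix.reindexRingEquiv R (e.sumCongr e) A.1)ᵀ =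
        Matrix.reindexRingEquiv R (e.sumCongr e) A.1ᵀ := rfl
    rw [h1, ← Matrix.coe_reindexRingEquiv, ← map_mul, ← map_mul, hA]⟩
  map_one' := Subtype.ext (map_one _)
  map_mul' A A' := Subtype.ext (map_mul _ _ _)

theorem spReindex_injective (e : l ≃ l') : Function.Injective (spReindex (R := R) e) := by
  intro A A' h
  apply Subtype.ext
  exact (Matrix.reindexRingEquiv R (e.sumCongr e)).injective (congrArg Subtype.val h)

end Reindex

end Cfsg.Agent.H50.SpExt
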