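import Mathlib
import Cfsg.Agent.H7.Unitary
import Cfsg.Agent.H17.Symp

set_option autoImplicit false

namespace Cfsg.Agent.H50.GUEmb

open Cfsg Matrix

section Trans

variable {F K : Type*} [Field F] [Field K] [Algebra F K]
variable {n ι : Type} [Fintype n] [DecidableEq n] [Fintype ι] [DecidableEq ι]

/-- Transport of the action of a matrix over `K` to an `F`-linear endomorphism of `ι → F`
along an `F`-linear equivalence. -/
noncomputable def transLin (Ψ : (n → K) ≃ₗ[F] (ι → F)) (g : Matrix n n K) :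
    (ι → F) →ₗ[F] (ι → F) :=
  Ψ.toLinearMap ∘ₗ ((Matrix.toLin' g).restrictScalars F) ∘ₗ Ψ.symm.toLinearMap

theorem transLin_apply (Ψ : (n → K) ≃ₗ[F] (ι → F)) (g : Matrix n n K) (x : ι → F) :
    transLin Ψ g x = Ψ (g *ᵥ Ψ.symm x) := rfl

/-- The transported matrix. -/
noncomputable def transMat (Ψ : (n → K) ≃ₗ[F] (ι → F)) : Matrix n n K →* Matrix ι ι F where
  toFun g := LinearMap.toMatrix' (transLin Ψ g)
  map_one' := by
    have : transLin Ψ (1 : Matrix n n K) = LinearMap.id := by
      apply LinearMap.ext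
      intro x
      rw [transLin_apply, Matrix.one_mulVec]
      simp
    rw [this, LinearMap.toMatrix'_id]
  map_mul' g h := by
    have : transLin Ψ (g * h) = transLin Ψ g ∘ₗ transLin Ψ h := by
      apply LinearMap.ext
      intro x
      rw [LinearMap.comp_apply, transLin_apply, transLin_apply, transLin_apply,
        LinearEquiv.symm_apply_apply, Matrix.mulVec_mulVec]
    rw [this, LinearMap.toMatrix'_comp]

theorem transMat_mulVec (Ψ : (n → K) ≃ₗ[F] (ι → F)) (g : Matrix n n K) (x : ι → F) :
    transMat Ψ g *ᵥ x = Ψ (g *ᵥ Ψ.symm x) := by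
  show LinearMap.toMatrix' (transLin Ψ g) *ᵥ x = _
  rw [← Matrix.toLin'_apply, Matrix.toLin'_toMatrix', transLin_apply]

theorem transMat_injective (Ψ : (n → K) ≃ₗ[F] (ι → F)) : Function.Injective (transMat Ψ) := by
  intro g h hgh
  have key : ∀ y : n → K, g *ᵥ y = h *ᵥ y := by
    intro y
    have h1 := transMat_mulVec Ψ g (Ψ y)
    have h2 := transMat_mulVec Ψ h (Ψ y)
    rw [hgh, h2, LinearEquiv.symm_apply_apply] at h1
    exact (Ψ.injective h1).symm
  ext i j
  have := congrFun (key (Pi.single j 1)) i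
  simpa [Matrix.mulVec_single_one] using this

end Trans

section Data

variable {F K : Type*} [Field F] [Fintype F] [Field K] [Fintype K] [Algebra F K] {q : ℕ}

omit [Fintype K] in
theorem algebraMap_pow_q (hF : Fintype.card F = q) (a : F) :
    (algebraMap F K a) ^ q = algebraMap F K a := by
  rw [← map_pow, ← hF, FiniteField.pow_card]

theorem finrank_eq_two (hF : Fintype.card F = q) (hK : Fintype.card K = q ^ 2) :
    Module.finrank F K = 2 := by
  have h := Module.card_eq_pow_finrank (K := F) (V := K)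
  rw [hK, hF] at h
  have hq : 2 ≤ q := by rw [← hF]; exact Fintype.one_lt_card
  exact (Nat.pow_right_injective hq h).symm

omit [Fintype K] in
theorem li_one_theta (hF : Fintype.card F = q) (θ : K) (hθ : θ ^ q ≠ θ) :
    LinearIndependent F ![(1 : K), θ] := by
  rw [LinearIndependent.pair_iff]
  intro a b hab
  by_cases hb : b = 0
  · subst hb
    rw [zero_smul, add_zero] at hab
    have : a = 0 := by
      by_contra ha
      have : (a • (1 : K)) ≠ 0 := smul_ne_zero ha one_ne_zero
      exact this hab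
    exact ⟨this, rfl⟩
  · exfalso
    apply hθ
    have h1 : θ = algebraMap F K (-a / b) := by
      rw [Algebra.smul_def, Algebra.smul_def, mul_one] at hab
      have hb' : algebraMap F K b ≠ 0 := by
        rw [Ne, map_eq_zero]; exact hb
      rw [map_div₀, map_neg, eq_div_iff hb']
      linear_combination hab
    rw [h1]
    exact algebraMap_pow_q hF _

/-- The basis `(1, θ)` of `K` over `F`. -/
noncomputable def quadBasis (hF : Fintype.card F = q) (hK : Fintype.card K = q ^ 2) (θ : K)
    (hθ : θ ^ q ≠ θ) : Module.Basis (Fin 2) F K :=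
  basisOfLinearIndependentOfCardEqFinrank (li_one_theta hF θ hθ)
    (by rw [finrank_eq_two hF hK]; rfl)

theorem quad_repr (hF : Fintype.card F = q) (hK : Fintype.card K = q ^ 2) (θ : K)
    (hθ : θ ^ q ≠ θ) (x : K) :
    x = algebraMap F K ((quadBasis hF hK θ hθ).repr x 0) +
      algebraMap F K ((quadBasis hF hK θ hθ).repr x 1) * θ := by
  have h := (quadBasis hF hK θ hθ).sum_repr x
  rw [Fin.sum_univ_two] at h
  have h0 : (quadBasis hF hK θ hθ) 0 = 1 := by
    unfold quadBasis; rw [coe_basisOfLinearIndependentOfCardEqFinrank]; rfl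
  have h1 : (quadBasis hF hK θ hθ) 1 = θ := by
    unfold quadBasis; rw [coe_basisOfLinearIndependentOfCardEqFinrank]; rfl
  rw [h0, h1, Algebra.smul_def, Algebra.smul_def, mul_one] at h
  exact h.symm

theorem quad_repr_pow (hF : Fintype.card F = q) (hK : Fintype.card K = q ^ 2) (θ : K)
    (hθ : θ ^ q ≠ θ) (x : K) :
    x ^ q = algebraMap F K ((quadBasis hF hK θ hθ).repr x 0) +
      algebraMap F K ((quadBasis hF hK θ hθ).repr x 1) * θ ^ q := by
  conv_lhs => rw [quad_repr hF hK θ hθ x]
  rw [H7.add_pow_q hK, mul_pow, algebraMap_pow_q hF, algebraMap_pow_q hF]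

/-- Elements fixed by the `q`-Frobenius come from `F`. -/
theorem exists_of_pow_q_eq (hF : Fintype.card F = q) (hK : Fintype.card K = q ^ 2) (θ : K)
    (hθ : θ ^ q ≠ θ) (z : K) (hz : z ^ q = z) : ∃ a : F, algebraMap F K a = z := by
  have h1 := quad_repr hF hK θ hθ z
  have h2 := quad_repr_pow hF hK θ hθ z
  rw [hz] at h2
  have h3 : algebraMap F K ((quadBasis hF hK θ hθ).repr z 1) * (θ ^ q - θ) = 0 := by
    linear_combination h1 - h2
  rcases mul_eq_zero.mp h3 with h | h
  · refine ⟨(quadBasis hF hK θ hθ).repr z 0, ?_⟩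
    rw [h, zero_mul, add_zero] at h1
    exact h1.symm
  · exact absurd (sub_eq_zero.mp h) hθ

/-- There is an element not fixed by the `q`-Frobenius. -/
theorem exists_theta (hF : Fintype.card F = q) (hK : Fintype.card K = q ^ 2) :
    ∃ θ : K, θ ^ q ≠ θ := by
  classical
  by_contra hcon
  push_neg at hcon
  have hq : 2 ≤ q := by rw [← hF]; exact Fintype.one_lt_card
  have h1 : (Polynomial.X ^ q - Polynomial.X : Polynomial K) ≠ 0 :=
    FiniteField.X_pow_card_sub_X_ne_zero K hq
  have h2 : (Polynomial.X ^ q - Polynomial.X : Polynomial K).natDegree = q :=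
    FiniteField.X_pow_card_sub_X_natDegree_eq K hq
  have h3 : Finset.univ ⊆ (Polynomial.X ^ q - Polynomial.X : Polynomial K).roots.toFinset := by
    intro x _
    rw [Multiset.mem_toFinset, Polynomial.mem_roots h1, Polynomial.IsRoot.def]
    simp [hcon x]
  have h4 := Finset.card_le_card h3
  have h5 := (Multiset.toFinset_card_le _).trans
    (Polynomial.card_roots' (Polynomial.X ^ q - Polynomial.X : Polynomial K))
  rw [h2] at h5
  rw [Finset.card_univ, hK] at h4
  have : q ^ 2 ≤ q := h4.trans h5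
  nlinarith

end Data

section Inj

variable {F K : Type*} [Field F] [Fintype F] [Field K] [Fintype K] [Algebra F K] {q : ℕ}
variable {ι : Type} [Fintype ι] [DecidableEq ι] {m : ℕ}

omit [Fintype F] [Algebra F K] in
theorem herm_zero_of (hK : Fintype.card K = q ^ 2) (u : Fin m → K)
    (h : ∀ v, H7.hermI (Fin m) K q u v = 0) : u = 0 := by
  have hq := H7.two_le_of_card_sq hK
  funext i
  have := h (Pi.single i 1)
  rw [H7.hermI_single_right q (by omega)] at this
  exact this

omit [Fintype F] [Fintype ι] [DecidableEq ι] in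
theorem inj_of_quad (hK : Fintype.card K = q ^ 2) (θ : K) (hθ : θ ^ q ≠ θ)
    (Ψ : (Fin m → K) →ₗ[F] (ι → F)) (Q : (ι → F) → F)
    (h : ∀ u, algebraMap F K (Q (Ψ u)) = H7.hermI (Fin m) K q u u) : Function.Injective Ψ := by
  rw [injective_iff_map_eq_zero]
  intro u hu
  apply herm_zero_of hK
  have h00 : H7.hermI (Fin m) K q u u = 0 := by
    have e0 := h u
    have e00 := h 0
    rw [hu] at e0
    rw [map_zero] at e00
    rw [← e0, e00]
    simp [H7.hermI]
  have h1 : ∀ w, H7.hermI (Fin m) K q u w + H7.hermI (Fin m) K q w u = 0 := by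
    intro w
    have e1 := h (u + w)
    rw [map_add, hu, zero_add, h w, H7.hermI_add_left, H7.hermI_add_right hK,
      H7.hermI_add_right hK, h00] at e1
    linear_combination -e1
  intro w
  have e1 := h1 w
  have e2 := h1 (θ • w)
  rw [H7.hermI_smul_right, H7.hermI_smul_left] at e2
  rw [← H7.hermI_conj hK u w] at e1 e2
  have e3 : (θ ^ q - θ) * H7.hermI (Fin m) K q u w = 0 := by
    linear_combination e2 - θ * e1
  rcases mul_eq_zero.mp e3 with h | h
  · exact absurd (sub_eq_zero.mp h) hθ
  · exact h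

omit [Fintype F] [Fintype ι] [DecidableEq ι] in
theorem inj_of_symp (hK : Fintype.card K = q ^ 2) (θ : K) (hθ : θ ^ q ≠ θ)
    (Ψ : (Fin m → K) →ₗ[F] (ι → F)) (B : (ι → F) → (ι → F) → F) (hB0 : ∀ y, B 0 y = 0) (ω : K)
    (h : ∀ u v, algebraMap F K (B (Ψ u) (Ψ v)) * ω =
      H7.hermI (Fin m) K q u v - H7.hermI (Fin m) K q v u) : Function.Injective Ψ := by
  rw [injective_iff_map_eq_zero]
  intro u hu
  apply herm_zero_of hK
  have h1 : ∀ w, H7.hermI (Fin m) K q u w = H7.hermI (Fin m) K q w u := by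
    intro w
    have e1 := h u w
    rw [hu, hB0, map_zero, zero_mul] at e1
    exact (sub_eq_zero.mp e1.symm)
  intro w
  have e1 := h1 w
  have e2 := h1 (θ • w)
  rw [H7.hermI_smul_right, H7.hermI_smul_left] at e2
  rw [← H7.hermI_conj hK u w] at e1 e2
  have e3 : (θ ^ q - θ) * H7.hermI (Fin m) K q u w = 0 := by
    linear_combination e2 - θ * e1
  rcases mul_eq_zero.mp e3 with h | h
  · exact absurd (sub_eq_zero.mp h) hθ
  · exact h

omit [DecidableEq ι] in
theorem exists_equiv (hF : Fintype.card F = q) (hK : Fintype.card K = q ^ 2)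
    (Ψ : (Fin m → K) →ₗ[F] (ι → F)) (hinj : Function.Injective Ψ)
    (hcard : Fintype.card ι = 2 * m) :
    ∃ Ψ' : (Fin m → K) ≃ₗ[F] (ι → F), ∀ u, Ψ' u = Ψ u := by
  have : Module.Finite F K := Module.Finite.of_finite
  have hdim : Module.finrank F (Fin m → K) = Module.finrank F (ι → F) := by
    rw [Module.finrank_pi_fintype, Module.finrank_fintype_fun_eq_card, hcard]
    simp [finrank_eq_two hF hK]
    ring
  exact ⟨LinearMap.linearEquivOfInjective Ψ hinj hdim, fun u => rfl⟩

end Inj

section Sp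

variable {F K : Type*} [Field F] [Fintype F] [Field K] [Fintype K] [Algebra F K] {q : ℕ}

omit [Fintype F] [Fintype K] in
/-- Coordinates with respect to a basis of `K` over `F`, arranged for the symplectic form. -/
noncomputable def psiSp (b : Module.Basis (Fin 2) F K) (m : ℕ) :
    (Fin m → K) →ₗ[F] (Fin m ⊕ Fin m → F) where
  toFun u := Sum.elim (fun i => b.repr (u i) 0) (fun i => b.repr (u i) 1)
  map_add' u v := by ext (i | i) <;> simp
  map_smul' c u := by ext (i | i) <;> simp

theorem psiSp_form (hF : Fintype.card F = q) (hK : Fintype.card K = q ^ 2) (θ : K)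
    (hθ : θ ^ q ≠ θ) (m : ℕ) (u v : Fin m → K) :
    algebraMap F K (sympForm m F (psiSp (quadBasis hF hK θ hθ) m u)
        (psiSp (quadBasis hF hK θ hθ) m v)) * (θ - θ ^ q) =
      H7.hermI (Fin m) K q u v - H7.hermI (Fin m) K q v u := by
  rw [H17.sympForm_eq_sum, map_sum, Finset.sum_mul]
  unfold H7.hermI
  rw [← Finset.sum_sub_distrib]
  apply Finset.sum_congr rfl
  intro i _
  simp only [psiSp, LinearMap.coe_mk, AddHom.coe_mk, Sum.elim_inl, Sum.elim_inr]
  have hx := quad_repr hF hK θ hθ (u i)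
  have hy := quad_repr hF hK θ hθ (v i)
  have hxq := quad_repr_pow hF hK θ hθ (u i)
  have hyq := quad_repr_pow hF hK θ hθ (v i)
  generalize ((quadBasis hF hK θ hθ).repr (u i)) 0 = x0 at hx hxq ⊢
  generalize ((quadBasis hF hK θ hθ).repr (u i)) 1 = x1 at hx hxq ⊢
  generalize ((quadBasis hF hK θ hθ).repr (v i)) 0 = y0 at hy hyq ⊢
  generalize ((quadBasis hF hK θ hθ).repr (v i)) 1 = y1 at hy hyq ⊢
  rw [hxq, hyq, hx, hy]
  simp only [map_sub, map_mul]
  ring

theorem exists_sp_hom (hF : Fintype.card F = q) (hK : Fintype.card K = q ^ 2) (m : ℕ) :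
    ∃ φ : ↥(GU m K q) →* ↥(Matrix.symplecticGroup (Fin m) F), Function.Injective φ := by
  obtain ⟨θ, hθ⟩ := exists_theta (F := F) hF hK
  have hω : θ - θ ^ q ≠ 0 := sub_ne_zero.mpr (Ne.symm hθ)
  have hinj : Function.Injective (psiSp (quadBasis hF hK θ hθ) m) :=
    inj_of_symp hK θ hθ _ (sympForm m F) (fun y => H17.sympForm_zero_left m y) (θ - θ ^ q)
      (psiSp_form hF hK θ hθ m)
  obtain ⟨Ψ, hΨ⟩ := exists_equiv hF hK _ hinj (by simp; ring)
  have hmem : ∀ g : ↥(GU m K q), transMat Ψ (g.1.1) ∈ Matrix.symplecticGroup (Fin m) F := by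
    intro g
    rw [H17.mem_symplecticGroup_iff_form]
    intro x y
    apply (algebraMap F K).injective
    apply mul_right_cancel₀ hω
    have hx : x = psiSp (quadBasis hF hK θ hθ) m (Ψ.symm x) := by rw [← hΨ]; simp
    have hy : y = psiSp (quadBasis hF hK θ hθ) m (Ψ.symm y) := by rw [← hΨ]; simp
    rw [transMat_mulVec, transMat_mulVec, hΨ, hΨ, psiSp_form]
    conv_rhs => rw [hx, hy, psiSp_form]
    have hg := (H7.mem_GUI_iff q g.1).mp g.2
    rw [hg, hg]
  refine ⟨MonoidHom.codRestrict ((transMat Ψ).comp ((Units.coeHom _).comp (GU m K q).subtype))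
    (Matrix.symplecticGroup (Fin m) F) hmem, ?_⟩
  intro g g' h
  have h1 := congrArg Subtype.val h
  exact Subtype.ext (Units.ext (transMat_injective Ψ h1))

end Sp

section Emb

/-- An algebra structure on the field with `q ^ 2` elements over the field with `q` elements. -/
theorem exists_algebra {F K : Type*} [Field F] [Fintype F] [Field K] [Fintype K] {q : ℕ}
    (hF : Fintype.card F = q) (hK : Fintype.card K = q ^ 2) : Nonempty (Algebra F K) := by
  classical
  obtain ⟨p, hp⟩ := CharP.exists F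
  haveI : Fact p.Prime := ⟨CharP.char_is_prime F p⟩
  let E := FiniteField.Extension F p 2
  letI : Fintype E := Fintype.ofFinite E
  have hcardE : Fintype.card E = q ^ 2 := by
    rw [Fintype.card_eq_nat_card, FiniteField.natCard_extension, ← Fintype.card_eq_nat_card, hF]
  let ψ : E ≃+* K := FiniteField.ringEquivOfCardEq (hcardE.trans hK.symm)
  exact ⟨((ψ : E →+* K).comp (algebraMap F E)).toAlgebra⟩

end Emb

end Cfsg.Agent.H50.GUEmb
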