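import Mathlib
import Cfsg.Agent.H95.FHDefs

/-!
# Feit–Higman project (S1142), piece QUANT2 (helper50)
The 2×2 braid identity forces `μ = mu p q n j`.
-/

set_option autoImplicit false

namespace Cfsg.Agent.H50.FH

open Matrix Cfsg.Agent.H95.FH

theorem alt_succ_succ {R : Type*} [Monoid R] (x y : R) (k : ℕ) :
    alt x y (k + 2) = x * y * alt x y k := by
  simp [alt, mul_assoc]

theorem alt_even {R : Type*} [Monoid R] (x y : R) (k : ℕ) :
    alt x y (2 * k) = (x * y) ^ k := by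
  induction k with
  | zero => simp [alt]
  | succ k ih => rw [show 2 * (k + 1) = 2 * k + 2 by ring, alt_succ_succ, ih, pow_succ']

theorem alt_odd {R : Type*} [Monoid R] (x y : R) (k : ℕ) :
    alt x y (2 * k + 1) = (x * y) ^ k * x := by
  induction k with
  | zero => simp [alt]
  | succ k ih =>
    rw [show 2 * (k + 1) + 1 = (2 * k + 1) + 2 by ring, alt_succ_succ, ih, pow_succ']
    simp only [mul_assoc]

theorem useq_succ_succ (T s : ℝ) (k : ℕ) :
    useq T s (k + 2) = T * useq T s (k + 1) - s * useq T s k := rfl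

theorem pow_useq (X : Matrix (Fin 2) (Fin 2) ℝ) (T s : ℝ)
    (hX : X * X = T • X - s • (1 : Matrix (Fin 2) (Fin 2) ℝ)) (k : ℕ) :
    X ^ (k + 1) = useq T s (k + 1) • X - (s * useq T s k) • (1 : Matrix (Fin 2) (Fin 2) ℝ) := by
  induction k with
  | zero => simp [useq]
  | succ k ih =>
    rw [pow_succ, ih, sub_mul, smul_mul_assoc, hX, smul_mul_assoc, one_mul, useq_succ_succ]
    module

theorem quant2 (hC : ChebStmt) : Quant2Stmt := by
  intro p q n μ hn hp hq hodd hμ hbraid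
  have hp' : (2 : ℝ) ≤ p := by exact_mod_cast hp
  have hq' : (2 : ℝ) ≤ q := by exact_mod_cast hq
  obtain ⟨T, hT⟩ : ∃ T : ℝ, T = ((p : ℝ) + 1) * ((q : ℝ) + 1) * μ - p - q := ⟨_, rfl⟩
  have hAC : (a2 (p : ℝ) μ * c2 (q : ℝ)) * (a2 (p : ℝ) μ * c2 (q : ℝ)) =
      T • (a2 (p : ℝ) μ * c2 (q : ℝ)) - ((p : ℝ) * q) • (1 : Matrix (Fin 2) (Fin 2) ℝ) := by
    ext i j
    fin_cases i <;> fin_cases j <;>
      simp [a2, c2, hT, Matrix.mul_apply, Fin.sum_univ_two] <;> ring
  have hCA : (c2 (q : ℝ) * a2 (p : ℝ) μ) * (c2 (q : ℝ) * a2 (p : ℝ) μ) =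
      T • (c2 (q : ℝ) * a2 (p : ℝ) μ) - ((p : ℝ) * q) • (1 : Matrix (Fin 2) (Fin 2) ℝ) := by
    ext i j
    fin_cases i <;> fin_cases j <;>
      simp [a2, c2, hT, Matrix.mul_apply, Fin.sum_univ_two] <;> ring
  have hμT : μ = (T + p + q) / (((p : ℝ) + 1) * ((q : ℝ) + 1)) := by
    rw [hT]; field_simp; ring
  rcases Nat.even_or_odd n with he | ho
  · obtain ⟨h, rfl⟩ := he
    obtain ⟨h', rfl⟩ : ∃ h', h = h' + 1 := ⟨h - 1, by omega⟩
    rw [show h' + 1 + (h' + 1) = 2 * (h' + 1) by ring, alt_even, alt_even,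
      pow_useq _ _ _ hAC, pow_useq _ _ _ hCA] at hbraid
    have h01 := congrFun (congrFun hbraid 0) 1
    simp only [Matrix.sub_apply, Matrix.smul_apply, smul_eq_mul, Matrix.mul_apply,
      Fin.sum_univ_two, a2, c2, Matrix.of_apply, Matrix.cons_val_zero, Matrix.cons_val_one,
      Matrix.one_apply] at h01
    simp at h01
    have hu : useq T ((p : ℝ) * q) (h' + 1) = 0 := by
      by_contra hne
      have h2 : useq T ((p : ℝ) * q) (h' + 1) * (((p : ℝ) + 1) * ((q : ℝ) + 1) * μ) = 0 := by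
        linear_combination h01
      rcases mul_eq_zero.mp h2 with h3 | h3
      · exact hne h3
      · have : ((p : ℝ) + 1) * ((q : ℝ) + 1) ≠ 0 := by positivity
        exact (mul_ne_zero this hμ) h3
    have hx : 0 < Real.sqrt ((p : ℝ) * q) := Real.sqrt_pos.mpr (by positivity)
    have hx2 : Real.sqrt ((p : ℝ) * q) ^ 2 = (p : ℝ) * q := Real.sq_sqrt (by positivity)
    obtain ⟨k, hk1, hk2, hk⟩ := hC.1 (Real.sqrt ((p : ℝ) * q)) T (h' + 1) hx (by omega)
      (by rw [hx2]; exact hu)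
    refine ⟨k, hk1, by omega, ?_⟩
    rw [hμT, hk]
    unfold mu
    have : Real.pi * (k : ℝ) / ((h' + 1 : ℕ) : ℝ) =
        2 * Real.pi * (k : ℝ) / ((2 * (h' + 1) : ℕ) : ℝ) := by
      push_cast
      field_simp
    rw [this]
    ring_nf
  · obtain ⟨h, rfl⟩ := ho
    have hpq := hodd ⟨h, rfl⟩
    subst hpq
    obtain ⟨h', rfl⟩ : ∃ h', h = h' + 1 := ⟨h - 1, by omega⟩
    rw [alt_odd, alt_odd, pow_useq _ _ _ hAC, pow_useq _ _ _ hCA] at hbraid
    have h00 := congrFun (congrFun hbraid 0) 0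
    simp only [Matrix.sub_apply, Matrix.smul_apply, smul_eq_mul, Matrix.mul_apply,
      Fin.sum_univ_two, a2, c2, Matrix.of_apply, Matrix.cons_val_zero, Matrix.cons_val_one,
      Matrix.one_apply] at h00
    simp at h00
    have hp0 : (0 : ℝ) < p := by linarith
    have hu : (T + p) * useq T ((p : ℝ) ^ 2) (h' + 1) =
        (p : ℝ) ^ 2 * useq T ((p : ℝ) ^ 2) (h' + 1 - 1) := by
      have hp1 : ((p : ℝ) + 1) ≠ 0 := by positivity
      have hsq : (p : ℝ) ^ 2 = (p : ℝ) * p := by ring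
      rw [hsq, Nat.add_sub_cancel]
      apply mul_left_cancel₀ hp1
      linear_combination h00 + ((p : ℝ) + 1) * useq T ((p : ℝ) * p) (h' + 1) * hT
    obtain ⟨k, hk1, hk2, hk⟩ := hC.2 (p : ℝ) T (h' + 1) hp0 (by omega) hu
    refine ⟨k, hk1, by omega, ?_⟩
    rw [hμT, hk]
    unfold mu
    have hs : Real.sqrt ((p : ℝ) * p) = p := Real.sqrt_mul_self hp0.le
    rw [hs]
    push_cast
    ring

example (hC : ChebStmt) : Quant2Stmt := quant2 hC

end Cfsg.Agent.H50.FH
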