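import Mathlib
import Cfsg.Agent.H50.FieldAutUMain

/-!
Field automorphisms of `PSU_n(q)` of odd prime order: the centraliser in the inner-diagonal
group and the splitting of the class.
-/

set_option autoImplicit false

open Matrix

namespace Cfsg.Agent.H50.FieldAutU

open Cfsg.Agent.H17 Cfsg.Agent.H50.GraphAut Cfsg.Agent.H50.GraphAutU Cfsg.Agent.H50.AutPSU
  Cfsg.Agent.H50.FieldAut

variable {n : ℕ} {F : Type*} [Field F] [Fintype F] {q : ℕ}

section emb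

variable {F₀ : Type*} [Field F₀] [Fintype F₀] {q₀ : ℕ}

theorem map_j_mem_GU (hF : Fintype.card F = q ^ 2) (hF₀ : Fintype.card F₀ = q₀ ^ 2)
    (j : F₀ →+* F) (hjq : ∀ x₀ : F₀, j (x₀ ^ q₀) = j x₀ ^ q) (g₀ : ↥(Cfsg.GU n F₀ q₀)) :
    Matrix.GeneralLinearGroup.map j g₀.1 ∈ Cfsg.GU n F q := by
  rw [mem_GU_iff hF]
  show (g₀.1.1.map j)ᵀ * (g₀.1.1.map j).map (frobE hF) = 1
  rw [map_j_unitary hF hF₀ j hjq, (mem_GU_iff hF₀ g₀.1).mp g₀.2, map_j_one]

/-- `GU_n(F₀) → GU_n(F)`. -/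
def mapJ (hF : Fintype.card F = q ^ 2) (hF₀ : Fintype.card F₀ = q₀ ^ 2)
    (j : F₀ →+* F) (hjq : ∀ x₀ : F₀, j (x₀ ^ q₀) = j x₀ ^ q) :
    ↥(Cfsg.GU n F₀ q₀) →* ↥(Cfsg.GU n F q) where
  toFun g₀ := ⟨Matrix.GeneralLinearGroup.map j g₀.1, map_j_mem_GU hF hF₀ j hjq g₀⟩
  map_one' := Subtype.ext (map_one _)
  map_mul' a b := Subtype.ext (map_mul _ _ _)

theorem mapJ_val (hF : Fintype.card F = q ^ 2) (hF₀ : Fintype.card F₀ = q₀ ^ 2)
    (j : F₀ →+* F) (hjq : ∀ x₀ : F₀, j (x₀ ^ q₀) = j x₀ ^ q) (g₀ : ↥(Cfsg.GU n F₀ q₀)) :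
    (mapJ hF hF₀ j hjq g₀).1.1 = g₀.1.1.map j := rfl

theorem mapJ_mem_cent (hF : Fintype.card F = q ^ 2) (hn : 3 ≤ n) (hs : ¬ (n = 3 ∧ q = 2))
    (hF₀ : Fintype.card F₀ = q₀ ^ 2) (σ : RingAut F) (j : F₀ →+* F)
    (hj : ∀ x : F, σ x = x ↔ ∃ x₀ : F₀, j x₀ = x) (hjq : ∀ x₀ : F₀, j (x₀ ^ q₀) = j x₀ ^ q)
    (g₀ : ↥(Cfsg.GU n F₀ q₀)) :
    mapJ hF hF₀ j hjq g₀ ∈ centGU (phiU hF σ : MulAut (Cfsg.PSU n F q)) := by
  rw [(actsU_phiU hF σ).mem_centGU hF hn hs]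
  refine ⟨1, ?_⟩
  rw [Units.val_one, one_smul]
  ext a b
  exact ((hj _).mpr ⟨g₀.1.1 a b, rfl⟩).symm

/-- The homomorphism from `GU_n(F₀)` onto the centraliser of `phiU σ` in `Inndiag`. -/
noncomputable def centHomUU (hF : Fintype.card F = q ^ 2) (hn : 3 ≤ n) (hs : ¬ (n = 3 ∧ q = 2))
    (hF₀ : Fintype.card F₀ = q₀ ^ 2) (σ : RingAut F) (j : F₀ →+* F)
    (hj : ∀ x : F, σ x = x ↔ ∃ x₀ : F₀, j x₀ = x) (hjq : ∀ x₀ : F₀, j (x₀ ^ q₀) = j x₀ ^ q) :
    ↥(Cfsg.GU n F₀ q₀) →* ↥(Cfsg.inndiagPSU n F q ⊓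
      Subgroup.centralizer {(phiU hF σ : MulAut (Cfsg.PSU n F q))}) :=
  (deltaUHom.comp (mapJ hF hF₀ j hjq)).codRestrict _ (fun g₀ => by
    rw [← map_centGU]
    exact ⟨_, mapJ_mem_cent hF hn hs hF₀ σ j hj hjq g₀, rfl⟩)

theorem centHomUU_val (hF : Fintype.card F = q ^ 2) (hn : 3 ≤ n) (hs : ¬ (n = 3 ∧ q = 2))
    (hF₀ : Fintype.card F₀ = q₀ ^ 2) (σ : RingAut F) (j : F₀ →+* F)
    (hj : ∀ x : F, σ x = x ↔ ∃ x₀ : F₀, j x₀ = x) (hjq : ∀ x₀ : F₀, j (x₀ ^ q₀) = j x₀ ^ q)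
    (g₀ : ↥(Cfsg.GU n F₀ q₀)) :
    ((centHomUU hF hn hs hF₀ σ j hj hjq g₀ : ↥(Cfsg.inndiagPSU n F q ⊓
      Subgroup.centralizer {(phiU hF σ : MulAut (Cfsg.PSU n F q))})) :
        MulAut (Cfsg.PSU n F q)) = deltaU (mapJ hF hF₀ j hjq g₀) := rfl

theorem centHomUU_surjective (hF : Fintype.card F = q ^ 2) (hn : 3 ≤ n)
    (hs : ¬ (n = 3 ∧ q = 2)) (hF₀ : Fintype.card F₀ = q₀ ^ 2) (σ : RingAut F) {r : ℕ}
    (hr : orderOf σ = r) (hro : Odd r) (j : F₀ →+* F)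
    (hj : ∀ x : F, σ x = x ↔ ∃ x₀ : F₀, j x₀ = x) (hjq : ∀ x₀ : F₀, j (x₀ ^ q₀) = j x₀ ^ q) :
    Function.Surjective (centHomUU (n := n) hF hn hs hF₀ σ j hj hjq) := by
  rintro ⟨y, hy⟩
  have hy' := hy
  rw [← map_centGU] at hy'
  obtain ⟨h, hh, rfl⟩ := hy'
  obtain ⟨e, h₀, he1, hfix, hh0⟩ := fixedU_of_cent hF hn hs σ hr hro h hh
  have he0 : e ≠ 0 := by
    rintro rfl
    rw [zero_pow (by omega)] at he1
    exact zero_ne_one he1
  obtain ⟨M₀, hM₀⟩ := exists_descend σ j hj h₀.1.1 hfix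
  have hU₀ : M₀ᵀ * M₀.map (frobE hF₀) = 1 := by
    apply Matrix.map_injective j.injective
    show (M₀ᵀ * M₀.map (frobE hF₀)).map j = (1 : Matrix (Fin n) (Fin n) F₀).map j
    rw [← map_j_unitary hF hF₀ j hjq, hM₀, (mem_GU_iff hF h₀.1).mp h₀.2, map_j_one]
  refine ⟨guOf hF₀ M₀ hU₀, ?_⟩
  apply Subtype.ext
  rw [centHomUU_val]
  show deltaU _ = deltaUHom _
  rw [deltaUHom_apply, deltaU_eq_iff hF hn hs]
  refine ⟨(Units.mk0 e he0)⁻¹, ?_⟩
  rw [mapJ_val, guOf_val, hM₀, hh0, smul_smul, Units.val_inv_eq_inv_val, Units.val_mk0,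
    inv_mul_cancel₀ he0, one_smul]

theorem centHomUU_ker (hF : Fintype.card F = q ^ 2) (hn : 3 ≤ n) (hs : ¬ (n = 3 ∧ q = 2))
    (hF₀ : Fintype.card F₀ = q₀ ^ 2) (σ : RingAut F) (j : F₀ →+* F)
    (hj : ∀ x : F, σ x = x ↔ ∃ x₀ : F₀, j x₀ = x) (hjq : ∀ x₀ : F₀, j (x₀ ^ q₀) = j x₀ ^ q) :
    (centHomUU (n := n) hF hn hs hF₀ σ j hj hjq).ker =
      (Cfsg.Geo.scalars (Fin n) F₀).subgroupOf (Cfsg.GU n F₀ q₀) := by
  have hn0 : 0 < n := by omega
  ext g₀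
  rw [MonoidHom.mem_ker, Subtype.ext_iff, centHomUU_val, Subgroup.mem_subgroupOf]
  show deltaU _ = 1 ↔ _
  rw [deltaU_eq_one_iff hF hn hs, Cfsg.Geo.mem_scalars_iff, Cfsg.Geo.mem_scalars_iff]
  constructor
  · rintro ⟨c, hc⟩
    have hc' : ∀ a b, j (g₀.1.1 a b) = ((c : F) • (1 : Matrix (Fin n) (Fin n) F)) a b :=
      fun a b => congrFun (congrFun hc a) b
    have hz : j (g₀.1.1 ⟨0, hn0⟩ ⟨0, hn0⟩) = c := by
      rw [hc']
      simp
    have ha0 : g₀.1.1 ⟨0, hn0⟩ ⟨0, hn0⟩ ≠ 0 := by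
      intro h0
      rw [h0, map_zero] at hz
      exact c.ne_zero hz.symm
    refine ⟨Units.mk0 _ ha0, ?_⟩
    ext a b
    apply j.injective
    rw [hc', Units.val_mk0]
    by_cases hab : a = b
    · subst hab
      simp [hz]
    · simp [Matrix.one_apply_ne hab]
  · rintro ⟨c₀, hc₀⟩
    have hjc : j (c₀ : F₀) ≠ 0 := (map_ne_zero j).mpr c₀.ne_zero
    refine ⟨Units.mk0 _ hjc, ?_⟩
    ext a b
    show j (g₀.1.1 a b) = _
    rw [hc₀, Units.val_mk0]
    by_cases hab : a = b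
    · subst hab
      simp
    · simp [Matrix.one_apply_ne hab]

/-- The centraliser of a standard field automorphism of odd order in `Inndiag` is `PGU_n` of
the fixed field. -/
theorem exists_cent_isoU (hF : Fintype.card F = q ^ 2) (hn : 3 ≤ n) (hs : ¬ (n = 3 ∧ q = 2))
    (hF₀ : Fintype.card F₀ = q₀ ^ 2) (σ : RingAut F) {r : ℕ}
    (hr : orderOf σ = r) (hro : Odd r) (j : F₀ →+* F)
    (hj : ∀ x : F, σ x = x ↔ ∃ x₀ : F₀, j x₀ = x) (hjq : ∀ x₀ : F₀, j (x₀ ^ q₀) = j x₀ ^ q) :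
    Nonempty (↥(Cfsg.inndiagPSU n F q ⊓
      Subgroup.centralizer {(phiU hF σ : MulAut (Cfsg.PSU n F q))}) ≃* Cfsg.PGU n F₀ q₀) := by
  have e1 := QuotientGroup.quotientKerEquivOfSurjective
    (centHomUU (n := n) hF hn hs hF₀ σ j hj hjq)
    (centHomUU_surjective hF hn hs hF₀ σ hr hro j hj hjq)
  have e2 : ↥(Cfsg.GU n F₀ q₀) ⧸ (centHomUU (n := n) hF hn hs hF₀ σ j hj hjq).ker ≃*
      Cfsg.PGU n F₀ q₀ :=
    QuotientGroup.quotientMulEquivOfEq (centHomUU_ker hF hn hs hF₀ σ j hj hjq)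
  exact ⟨e1.symm.trans e2⟩

end emb

/-- The norm-one units fixed by `σ`. -/
def fixN (σ : RingAut F) (q : ℕ) : Subgroup ↥(normOne F q) := (fixU σ).subgroupOf (normOne F q)

theorem mem_fixN (σ : RingAut F) (u : ↥(normOne F q)) :
    u ∈ fixN σ q ↔ σ ((u : Fˣ) : F) = ((u : Fˣ) : F) := Iff.rfl

theorem card_fixN {F₀ : Type*} [Field F₀] [Fintype F₀] {q₀ : ℕ}
    (hF₀ : Fintype.card F₀ = q₀ ^ 2) (σ : RingAut F) (j : F₀ →+* F)
    (hj : ∀ x : F, σ x = x ↔ ∃ x₀ : F₀, j x₀ = x) (hjq : ∀ x₀ : F₀, j (x₀ ^ q₀) = j x₀ ^ q) :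
    Nat.card (fixN σ q) = q₀ + 1 := by
  have hmem : ∀ u₀ : ↥(normOne F₀ q₀), Units.map (j : F₀ →* F) u₀.1 ∈ normOne F q := by
    intro u₀
    rw [mem_normOne]
    have h1 : ((u₀ : F₀ˣ) : F₀) ^ (q₀ + 1) = 1 := (mem_normOne u₀.1).mp u₀.2
    show j ((u₀ : F₀ˣ) : F₀) ^ (q + 1) = 1
    rw [pow_succ, ← hjq, ← map_mul, ← pow_succ, h1, map_one]
  have hbij : Function.Bijective (fun u₀ : ↥(normOne F₀ q₀) =>
      (⟨⟨Units.map (j : F₀ →* F) u₀.1, hmem u₀⟩, (hj _).mpr ⟨((u₀ : F₀ˣ) : F₀), rfl⟩⟩ :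
        fixN σ q)) := by
    constructor
    · intro a b hab
      have h1 := congrArg (fun u : fixN σ q => (((u : ↥(normOne F q)) : Fˣ) : F)) hab
      exact Subtype.ext (Units.ext (j.injective h1))
    · rintro ⟨u, hu⟩
      have hu' : σ ((u : Fˣ) : F) = ((u : Fˣ) : F) := hu
      obtain ⟨x₀, hx₀⟩ := (hj _).mp hu'
      have hx0 : x₀ ≠ 0 := by
        rintro rfl
        rw [map_zero] at hx₀
        exact u.1.ne_zero hx₀.symm
      have hu1 : ((u : Fˣ) : F) ^ (q + 1) = 1 := (mem_normOne u.1).mp u.2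
      have hx1 : x₀ ^ (q₀ + 1) = 1 := by
        apply j.injective
        rw [map_one, pow_succ, map_mul, hjq, hx₀, ← pow_succ, hu1]
      refine ⟨⟨Units.mk0 x₀ hx0, (mem_normOne _).mpr hx1⟩, ?_⟩
      apply Subtype.ext
      apply Subtype.ext
      apply Units.ext
      exact hx₀
  rw [← Nat.card_congr (Equiv.ofBijective _ hbij), card_normOne hF₀]

/-- The determinants of the centraliser of a standard field automorphism of odd order. -/
theorem detCentU_phiU (hF : Fintype.card F = q ^ 2) (hn : 3 ≤ n) (hs : ¬ (n = 3 ∧ q = 2))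
    (σ : RingAut F) {r : ℕ} (hr : orderOf σ = r) (hro : Odd r) :
    detCentU hF (phiU hF σ : MulAut (Cfsg.PSU n F q)) =
      fixN σ q ⊔ (powMonoidHom n : ↥(normOne F q) →* ↥(normOne F q)).range := by
  have hn0 : 0 < n := by omega
  apply le_antisymm
  · rintro _ ⟨h, hh, rfl⟩
    obtain ⟨e, h₀, he1, hfix, hh0⟩ := fixedU_of_cent hF hn hs σ hr hro h hh
    have he0 : e ≠ 0 := by
      rintro rfl
      rw [zero_pow (by omega)] at he1
      exact zero_ne_one he1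
    have e1 : detC hF h = detC hF h₀ *
        (⟨Units.mk0 e he0, (mem_normOne _).mpr he1⟩ : ↥(normOne F q)) ^ n := by
      apply Subtype.ext
      apply Units.ext
      rw [detC_val, hh0, Matrix.det_smul, Fintype.card_fin, mul_comm]
      rfl
    rw [e1]
    apply Subgroup.mul_mem_sup
    · rw [mem_fixN, detC_val, ← GraphAutU.det_map', hfix]
    · exact ⟨_, rfl⟩
  · apply sup_le
    · intro u hu
      rw [mem_fixN] at hu
      let z : Fin n := ⟨0, hn0⟩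
      have hx : ((u : Fˣ) : F) ^ (q + 1) = 1 := (mem_normOne u.1).mp u.2
      have hU : (Matrix.diagonal (Function.update (fun _ : Fin n => (1 : F)) z ((u : Fˣ) : F)))ᵀ *
          (Matrix.diagonal (Function.update (fun _ : Fin n => (1 : F)) z ((u : Fˣ) : F))).map
            (frobE hF) = 1 := by
        rw [Matrix.diagonal_transpose, Matrix.diagonal_map (map_zero _),
          Matrix.diagonal_mul_diagonal, ← Matrix.diagonal_one]
        congr 1
        funext i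
        by_cases h : i = z
        · subst h
          simp only [Function.update_self, frobE_apply]
          rw [← pow_succ']
          exact hx
        · simp only [Function.update_of_ne h, frobE_apply]
          simp
      have hDfix : (Matrix.diagonal (Function.update (fun _ : Fin n => (1 : F)) z
          ((u : Fˣ) : F))).map σ =
          Matrix.diagonal (Function.update (fun _ : Fin n => (1 : F)) z ((u : Fˣ) : F)) := by
        rw [Matrix.diagonal_map (map_zero _)]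
        congr 1
        funext i
        by_cases h : i = z
        · subst h
          simp only [Function.comp_apply, Function.update_self]
          exact hu
        · simp only [Function.comp_apply, Function.update_of_ne h]
          exact map_one σ
      refine ⟨guOf hF _ hU, ?_, ?_⟩
      · show _ ∈ centGU _
        rw [(actsU_phiU hF σ).mem_centGU hF hn hs]
        refine ⟨1, ?_⟩
        rw [Units.val_one, one_smul]
        exact hDfix.symm
      · apply Subtype.ext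
        apply Units.ext
        rw [detC_val, guOf_val, Matrix.det_diagonal,
          Finset.prod_update_of_mem (Finset.mem_univ z)]
        simp
    · rintro _ ⟨d, rfl⟩
      have hd1 : ((d : Fˣ) : F) ^ (q + 1) = 1 := (mem_normOne d.1).mp d.2
      refine ⟨smulGU hF ((d : Fˣ) : F) hd1 1, ?_, ?_⟩
      · show _ ∈ centGU _
        rw [mem_centGU]
        have h1 : deltaU (smulGU hF ((d : Fˣ) : F) hd1 (1 : ↥(Cfsg.GU n F q))) = 1 := by
          rw [deltaU_eq_one_iff hF hn hs, Cfsg.Geo.mem_scalars_iff]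
          exact ⟨d.1, rfl⟩
        rw [h1, one_mul, mul_one]
      · apply Subtype.ext
        apply Units.ext
        rw [detC_val, smulGU_val, one_val_GU, Matrix.det_smul, Matrix.det_one, mul_one,
          Fintype.card_fin]
        rfl

/-- Field automorphisms of odd prime order: the order of the field, the centraliser in
`Inndiag` and the splitting of the class. -/
theorem fieldU_main {p f : ℕ} [Fact p.Prime] (hF : Fintype.card F = q ^ 2) (hq : q = p ^ f)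
    (hf : 1 ≤ f) (hn : 3 ≤ n) (hs : ¬ (n = 3 ∧ q = 2)) (x : MulAut (Cfsg.PSU n F q))
    (hx : Cfsg.IsFieldAutClassPSU x) {r : ℕ} (hr : r.Prime) (hro : Odd r)
    (hxr : orderOf x = r) (F₀ : Type*) [Field F₀] [Fintype F₀]
    (hF₀ : Fintype.card F₀ = p ^ (2 * (f / r))) :
    r ∣ f ∧
      Nonempty (↥(Cfsg.inndiagPSU n F q ⊓ Subgroup.centralizer {x}) ≃*
        Cfsg.PGU n F₀ (p ^ (f / r))) ∧
      Cfsg.splitClassCount (Cfsg.inndiagPSU n F q) (Cfsg.Inn (Cfsg.PSU n F q)) x =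
          Nat.gcd n ((q + 1) / (p ^ (f / r) + 1)) := by
  obtain ⟨σ, d, hσ, hodd, rfl⟩ := fieldU_std hF hq hf hn hs x hx
  have hord : orderOf σ = r := by
    rw [← orderOf_phiU hF hn σ, ← hxr, orderOf_conj']
  have hrf : r ∣ f := hord ▸ odd_order_dvd hF hq hf σ hodd
  have hF₀2 : Fintype.card F₀ = p ^ (2 * f / r) := by
    rw [hF₀, Nat.mul_div_assoc 2 hrf]
  have hF₀' : Fintype.card F₀ = (p ^ (f / r)) ^ 2 := by
    rw [hF₀, ← pow_mul, mul_comm]
  obtain ⟨j, hj⟩ := exists_emb_fix (card_sq hq hF) σ hord hr.pos F₀ hF₀2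
  have hjq := map_pow_q₀ hF₀' (q_eq_pow hq hrf) hro j
  have hd : deltaU d ∈ Cfsg.inndiagPSU n F q := by
    rw [inndiagU_eq]
    exact ⟨d, rfl⟩
  refine ⟨hrf, ?_, ?_⟩
  · haveI := inndiagU_normal hF hq hf hn hs
    obtain ⟨e⟩ := exists_cent_isoU (n := n) hF hn hs hF₀' σ hord hro j hj hjq
    exact ⟨(centConj (Cfsg.inndiagPSU n F q) (deltaU d) (phiU hF σ)).symm.trans e⟩
  · rw [splitClassCount_conj _ _ _ hd, splitClassCountU_eq hF (by omega),
      detCentU_phiU hF hn hs σ hord hro, cyc_index_sup_pow, card_fixN hF₀' σ j hj hjq,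
      card_normOne hF]

end Cfsg.Agent.H50.FieldAutU
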