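import Mathlib
import Cfsg.Agent.H7.Unitary
import Cfsg.Agent.H50.ShinCount

set_option autoImplicit false

namespace Cfsg.Agent.H50.GUFix

open Cfsg Matrix

section Field

variable {K : Type*} [Field K]

/-- The fixed field of a field automorphism. -/
def fixK (σ : K ≃+* K) : Subfield K := FixedPoints.subfield ↥(Subgroup.zpowers σ) K

theorem mem_fixK (σ : K ≃+* K) (x : K) : x ∈ fixK σ ↔ σ x = x := by
  constructor
  · intro h
    exact h ⟨σ, Subgroup.mem_zpowers σ⟩
  · intro h g
    obtain ⟨g, hg⟩ := g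
    obtain ⟨k, rfl⟩ := Subgroup.mem_zpowers_iff.mp hg
    show (σ ^ k) x = x
    have h1 : ∀ m : ℕ, (σ ^ m) x = x := by
      intro m
      induction m with
      | zero => simp
      | succ m ih => rw [pow_succ, RingAut.mul_apply, h, ih]
    have h2 : ∀ m : ℕ, (σ ^ m)⁻¹ x = x := by
      intro m
      have := h1 m
      calc (σ ^ m)⁻¹ x = (σ ^ m)⁻¹ ((σ ^ m) x) := by rw [this]
        _ = x := by rw [← RingAut.mul_apply]; simp
    obtain ⟨m, rfl | rfl⟩ := Int.eq_nat_or_neg k
    · rw [zpow_natCast]; exact h1 m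
    · rw [_root_.zpow_neg, zpow_natCast]; exact h2 m

variable [Fintype K]

/-- The fixed field of an automorphism of order `r` of a field with `q₀ ^ (2r)` elements has
`q₀ ^ 2` elements. -/
theorem card_fixK (σ : K ≃+* K) {q₀ r : ℕ} (hr : r ≠ 0) (hσ : orderOf σ = r)
    (hK : Fintype.card K = (q₀ ^ r) ^ 2) [Fintype ↥(fixK σ)] :
    Fintype.card ↥(fixK σ) = q₀ ^ 2 := by
  classical
  have hfin : Finite ↥(Subgroup.zpowers σ) := by
    apply Nat.finite_of_card_ne_zero
    rw [Nat.card_zpowers, hσ]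
    exact hr
  letI : Fintype ↥(Subgroup.zpowers σ) := Fintype.ofFinite _
  have h1 : Module.finrank ↥(fixK σ) K = r := by
    have := FixedPoints.finrank_eq_card ↥(Subgroup.zpowers σ) K
    rw [← Nat.card_eq_fintype_card, Nat.card_zpowers, hσ] at this
    exact this
  have h2 := Module.card_eq_pow_finrank (K := ↥(fixK σ)) (V := K)
  rw [h1, hK] at h2
  have h3 : (q₀ ^ r) ^ 2 = (q₀ ^ 2) ^ r := by ring
  rw [h3] at h2
  exact (Nat.pow_left_injective hr h2).symm

/-- On the fixed field, `x ^ (q₀ ^ r) = x ^ q₀` for `r` odd. -/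
theorem pow_eq_of_mem_fixK (σ : K ≃+* K) {q₀ r : ℕ} (hr : Odd r) (hσ : orderOf σ = r)
    (hK : Fintype.card K = (q₀ ^ r) ^ 2) (x : K) (hx : x ∈ fixK σ) :
    x ^ (q₀ ^ r) = x ^ q₀ := by
  classical
  let _ : Fintype ↥(fixK σ) := Fintype.ofFinite _
  have hr0 : r ≠ 0 := by rintro rfl; simp at hr
  have hc := card_fixK σ hr0 hσ hK
  have h1 : x ^ (q₀ ^ 2) = x := by
    have := FiniteField.pow_card (⟨x, hx⟩ : ↥(fixK σ))
    rw [hc] at this
    exact congrArg Subtype.val this
  have h2 : ∀ j : ℕ, x ^ ((q₀ ^ 2) ^ j) = x := by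
    intro j
    induction j with
    | zero => simp
    | succ j ih => rw [pow_succ, pow_mul, ih, h1]
  obtain ⟨j, rfl⟩ := hr
  rw [pow_succ, pow_mul, pow_mul, h2 j]

end Field

section H90

variable {K : Type*} [Field K]

/-- Partial norms `c * σ c * ... * σ^(i-1) c`. -/
def pn (σ : K ≃+* K) (c : K) : ℕ → K
  | 0 => 1
  | (i + 1) => c * σ (pn σ c i)

/-- Hilbert 90 for a cyclic group of field automorphisms (Dedekind independence). -/
theorem hilbert90 (σ : K ≃+* K) {r : ℕ} (hσ : orderOf σ = r) (hr0 : 0 < r) (c : K)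
    (hN : pn σ c r = 1) : ∃ b : K, b ≠ 0 ∧ c * σ b = b := by
  classical
  let B : K → K := fun x => ∑ i ∈ Finset.range r, pn σ c i * (σ ^ i) x
  have hB : ∀ x, c * σ (B x) = B x := by
    intro x
    simp only [B]
    rw [map_sum, Finset.mul_sum]
    have h1 : ∀ i ∈ Finset.range r,
        c * σ (pn σ c i * (σ ^ i) x) = pn σ c (i + 1) * (σ ^ (i + 1)) x := by
      intro i _
      rw [map_mul, ← mul_assoc, pow_succ', RingAut.mul_apply]
      rfl
    rw [Finset.sum_congr rfl h1]
    have h2 := Finset.sum_range_succ' (fun i => pn σ c i * (σ ^ i) x) r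
    have h3 := Finset.sum_range_succ (fun i => pn σ c i * (σ ^ i) x) r
    have hr1 : (σ ^ r) x = x := by rw [← hσ, pow_orderOf_eq_one]; rfl
    simp only [hN, hr1, pow_zero, RingAut.one_apply, pn] at h2 h3
    rw [h3] at h2
    exact (add_right_cancel h2).symm
  by_contra hcon
  have hB0 : ∀ x, B x = 0 := fun x => by
    by_contra h
    exact hcon ⟨B x, h, hB x⟩
  have hli := linearIndependent_monoidHom K K
  have hinj : Function.Injective (fun i : Fin r => ((σ ^ (i : ℕ) : K ≃+* K) : K →* K)) := by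
    intro i j hij
    have : σ ^ (i : ℕ) = σ ^ (j : ℕ) := by
      ext x
      exact DFunLike.congr_fun hij x
    apply Fin.ext
    exact pow_injOn_Iio_orderOf (by rw [hσ]; exact i.2) (by rw [hσ]; exact j.2) this
  have hli2 := hli.comp _ hinj
  rw [Fintype.linearIndependent_iff] at hli2
  have h0 := hli2 (fun i => pn σ c i) (by
    funext x
    simp only [Finset.sum_apply, Pi.smul_apply, smul_eq_mul, Function.comp]
    have := hB0 x
    simp only [B] at this
    rw [← Fin.sum_univ_eq_sum_range (fun i => pn σ c i * (σ ^ i) x) r] at this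
    exact this) ⟨0, hr0⟩
  simp [pn] at h0

end H90

section Mat

variable {K : Type*} [Field K] {ι : Type} [Fintype ι] [DecidableEq ι]

theorem map_pow_iter (σ : K ≃+* K) (c : K) (M : Matrix ι ι K) (h : M.map σ = c • M) (i : ℕ) :
    M.map (σ ^ i : K ≃+* K) = pn σ c i • M := by
  induction i with
  | zero => ext a b; simp [pn]
  | succ i ih =>
    have h1 : M.map (σ ^ (i + 1) : K ≃+* K) = (M.map (σ ^ i : K ≃+* K)).map σ := by
      ext a b; simp [pow_succ', RingAut.mul_apply]
    rw [h1, ih]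
    ext a b
    have h2 := congrFun (congrFun h a) b
    simp only [Matrix.map_apply, Matrix.smul_apply, smul_eq_mul] at h2
    simp only [Matrix.map_apply, Matrix.smul_apply, smul_eq_mul, map_mul, pn]
    rw [h2]; ring

/-- The matrix form of unitarity. -/
def IsU (q : ℕ) (M : Matrix ι ι K) : Prop := Mᵀ * M.map (fun x => x ^ q) = 1

theorem isU_smul {q : ℕ} (z : K) (hz : z ^ (q + 1) = 1) (M : Matrix ι ι K) (hM : IsU q M) :
    IsU q (z • M) := by
  unfold IsU at hM ⊢
  have h1 : (z • M).map (fun x => x ^ q) = z ^ q • M.map (fun x => x ^ q) := by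
    ext a b; simp [mul_pow]
  rw [h1, Matrix.transpose_smul, Matrix.smul_mul, Matrix.mul_smul, hM, smul_smul, ← pow_succ', hz,
    one_smul]

theorem isU_map (σ : K ≃+* K) {q : ℕ} (M : Matrix ι ι K) (hM : IsU q M) : IsU q (M.map σ) := by
  unfold IsU at hM ⊢
  have h1 : (M.map σ).map (fun x => x ^ q) = (M.map (fun x => x ^ q)).map σ := by
    ext a b; simp
  rw [h1, ← Matrix.transpose_map, ← Matrix.map_mul (f := σ), hM]
  ext a b
  simp [Matrix.one_apply, apply_ite]

variable [Fintype K]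

theorem mem_GUI_iff_isU {q : ℕ} (hK : Fintype.card K = q ^ 2) (g : GL ι K) :
    g ∈ H7.GUI ι K q ↔ IsU q g.1 := by
  have hq := H7.two_le_of_card_sq hK
  constructor
  · intro hg
    exact H7.GUI_transpose_mul_map (by omega) g hg
  · intro hg
    rw [H7.mem_GUI_iff]
    intro u v
    obtain ⟨f, hf⟩ := H7.exists_frobQ hK
    have hgf : g.1ᵀ * g.1.map f = 1 := by
      have : g.1.map f = g.1.map (fun x => x ^ q) := by ext a b; simp [hf]
      rw [this]; exact hg
    have key : ∀ w : ι → K, H7.hermI ι K q u w = u ⬝ᵥ (f ∘ w) := by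
      intro w
      unfold H7.hermI
      simp [dotProduct, hf]
    have key2 : ∀ w : ι → K, H7.hermI ι K q (g.1 *ᵥ u) (g.1 *ᵥ w) = u ⬝ᵥ (f ∘ w) := by
      intro w
      unfold H7.hermI
      have h1 : ∀ i, (g.1 *ᵥ w) i ^ q = (g.1.map f *ᵥ (f ∘ w)) i := by
        intro i
        rw [← hf, RingHom.map_mulVec]
      simp only [h1]
      show (g.1 *ᵥ u) ⬝ᵥ (g.1.map f *ᵥ (f ∘ w)) = _
      rw [← Matrix.vecMul_transpose, ← Matrix.dotProduct_mulVec, Matrix.mulVec_mulVec, hgf,
        Matrix.one_mulVec]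
    rw [key2, key]

/-- `GU` as a set of matrices. -/
noncomputable def guEquiv {q : ℕ} (hK : Fintype.card K = q ^ 2) :
    ↥(H7.GUI ι K q) ≃ {M : Matrix ι ι K // IsU q M} :=
  Equiv.ofBijective (fun g => ⟨g.1.1, (mem_GUI_iff_isU hK g.1).mp g.2⟩) (by
    constructor
    · intro g g' h
      apply Subtype.ext
      apply Units.ext
      exact congrArg Subtype.val h
    · rintro ⟨M, hM⟩
      have hu : IsUnit M := by
        rw [Matrix.isUnit_iff_isUnit_det]
        have h1 := congrArg Matrix.det hM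
        rw [Matrix.det_mul, Matrix.det_transpose, Matrix.det_one] at h1
        exact IsUnit.of_mul_eq_one _ h1
      exact ⟨⟨hu.unit, (mem_GUI_iff_isU hK _).mpr hM⟩, rfl⟩)

theorem guEquiv_coe {q : ℕ} (hK : Fintype.card K = q ^ 2) (g : ↥(H7.GUI ι K q)) :
    ((guEquiv hK g : {M : Matrix ι ι K // IsU q M}) : Matrix ι ι K) = g.1.1 := rfl

end Mat

section Count

/-- Double counting of a relation with constant fibres on both sides. -/
theorem double_count {α β : Type*} (Rel : α → β → Prop) (N M : Type*)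
    (h1 : ∀ a, Nonempty ({b // Rel a b} ≃ N)) (h2 : ∀ b, Nonempty ({a // Rel a b} ≃ M)) :
    Nat.card α * Nat.card N = Nat.card β * Nat.card M := by
  have e1 := Shin.card_rel Rel (fun _ => True) N (fun a _ => h1 a) (fun _ _ _ => trivial)
  have e2 := Shin.card_rel (fun b a => Rel a b) (fun _ => True) M (fun b _ => h2 b)
    (fun _ _ _ => trivial)
  have e3 : Nat.card {p : α × β // Rel p.1 p.2} = Nat.card {p : β × α // Rel p.2 p.1} :=
    Nat.card_congr ((Equiv.prodComm α β).subtypeEquiv (by intro p; rfl))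
  have e4 : Nat.card {k : α // True} = Nat.card α :=
    Nat.card_congr (Equiv.subtypeUnivEquiv (fun _ => trivial))
  have e5 : Nat.card {k : β // True} = Nat.card β :=
    Nat.card_congr (Equiv.subtypeUnivEquiv (fun _ => trivial))
  rw [← e4, ← e5, ← e1, ← e2, e3]

variable {K : Type*} [Field K] [Fintype K] {ι : Type} [Fintype ι] [DecidableEq ι]

theorem exists_z [Nonempty ι] {q₀ q r : ℕ} (hr : Odd r) (hq : q = q₀ ^ r)
    (hK : Fintype.card K = q ^ 2) (σ : K ≃+* K) (hσ : orderOf σ = r)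
    (M : Matrix ι ι K) (hM : IsU q M) (c : K) (hMc : M.map σ = c • M) :
    ∃ z : K, z ^ (q + 1) = 1 ∧ σ z = c * z := by
  classical
  let _ : Fintype ↥(fixK σ) := Fintype.ofFinite _
  have hr0 : r ≠ 0 := by rintro rfl; simp at hr
  have hK' : Fintype.card K = (q₀ ^ r) ^ 2 := by rw [← hq]; exact hK
  have hK₀ : Fintype.card ↥(fixK σ) = q₀ ^ 2 := card_fixK σ hr0 hσ hK'
  have hq2 := H7.two_le_of_card_sq hK
  obtain ⟨a0⟩ := (inferInstance : Nonempty ι)
  -- `c ^ (q+1) = 1`
  have hc1 : c ^ (q + 1) = 1 := by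
    have h1 := isU_map σ M hM
    rw [hMc] at h1
    unfold IsU at h1 hM
    have h2 : (c • M).map (fun x => x ^ q) = c ^ q • M.map (fun x => x ^ q) := by
      ext a b; simp [mul_pow]
    rw [h2, Matrix.transpose_smul, Matrix.smul_mul, Matrix.mul_smul, hM, smul_smul,
      ← pow_succ'] at h1
    have h3 := congrFun (congrFun h1 a0) a0
    simpa using h3
  -- `M ≠ 0`
  have hM0 : ∃ a b, M a b ≠ 0 := by
    by_contra hcon
    push_neg at hcon
    have : M = 0 := by ext a b; exact hcon a b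
    unfold IsU at hM
    rw [this] at hM
    have h3 := congrFun (congrFun hM a0) a0
    simp at h3
  obtain ⟨a, b, hab⟩ := hM0
  -- the norm of `c` is one
  have hN : pn σ c r = 1 := by
    have h1 := map_pow_iter σ c M hMc r
    rw [← hσ, pow_orderOf_eq_one] at h1
    have h2 := congrFun (congrFun h1 a) b
    simp only [Matrix.map_apply, Matrix.smul_apply, smul_eq_mul, RingAut.one_apply] at h2
    have h3 : (pn σ c (orderOf σ) - 1) * M a b = 0 := by rw [sub_mul, ← h2]; ring
    rcases mul_eq_zero.mp h3 with h | h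
    · rw [← hσ]; exact sub_eq_zero.mp h
    · exact absurd h hab
  obtain ⟨b', hb0, hb⟩ := hilbert90 σ hσ (Nat.pos_of_ne_zero hr0) c hN
  -- `d = b' ^ (q+1)` lies in the fixed field of `σ` and of the `q₀`-Frobenius
  have hd0 : b' ^ (q + 1) ≠ 0 := pow_ne_zero _ hb0
  have hdσ : σ (b' ^ (q + 1)) = b' ^ (q + 1) := by
    have h1 : (c * σ b') ^ (q + 1) = b' ^ (q + 1) := by rw [hb]
    rw [mul_pow, hc1, one_mul] at h1
    rw [map_pow]; exact h1
  have hdmem : b' ^ (q + 1) ∈ fixK σ := (mem_fixK σ _).mpr hdσ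
  have hdq : (b' ^ (q + 1)) ^ q₀ = b' ^ (q + 1) := by
    have h1 := H7.norm_pow_q hK b'
    have h2 := pow_eq_of_mem_fixK σ hr hσ hK' _ hdmem
    rw [← hq] at h2
    rw [← h2]; exact h1
  obtain ⟨x, hx⟩ := H7.exists_norm_eq hK₀ (⟨b' ^ (q + 1), hdmem⟩ : ↥(fixK σ))
    (by intro h; exact hd0 (congrArg Subtype.val h)) (Subtype.ext hdq)
  have hx' : ((x : ↥(fixK σ)) : K) ^ (q₀ + 1) = b' ^ (q + 1) := congrArg Subtype.val hx
  have hxσ : σ ((x : ↥(fixK σ)) : K) = ((x : ↥(fixK σ)) : K) :=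
    (mem_fixK σ _).mp (x : ↥(fixK σ)).2
  have hxq : ((x : ↥(fixK σ)) : K) ^ (q + 1) = b' ^ (q + 1) := by
    have h2 := pow_eq_of_mem_fixK σ hr hσ hK' _ (x : ↥(fixK σ)).2
    rw [← hq] at h2
    rw [pow_succ, h2, ← pow_succ, hx']
  have hσb0 : σ b' ≠ 0 := by
    intro h; rw [h, mul_zero] at hb; exact hb0 hb.symm
  refine ⟨((x : ↥(fixK σ)) : K) / b', ?_, ?_⟩
  · rw [div_pow, hxq, div_self hd0]
  · rw [map_div₀, hxσ]
    field_simp
    rw [mul_comm]; exact hb.symm

omit [Fintype K] in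
theorem isU_ne_zero [Nonempty ι] {q : ℕ} (M : Matrix ι ι K) (hM : IsU q M) :
    ∃ a b, M a b ≠ 0 := by
  obtain ⟨a0⟩ := (inferInstance : Nonempty ι)
  by_contra hcon
  push_neg at hcon
  have : M = 0 := by ext a b; exact hcon a b
  unfold IsU at hM
  rw [this] at hM
  have h3 := congrFun (congrFun hM a0) a0
  simp at h3

omit [Fintype K] [Fintype ι] [DecidableEq ι] in
theorem map_smul_mat (σ : K ≃+* K) (x : K) (M : Matrix ι ι K) :
    (x • M).map σ = σ x • M.map σ := by
  ext a b; simp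

theorem card_S [Nonempty ι] {q₀ q r : ℕ} (hr : Odd r) (hq : q = q₀ ^ r)
    (hK : Fintype.card K = q ^ 2) (σ : K ≃+* K) (hσ : orderOf σ = r) :
    Nat.card {M : Matrix ι ι K // IsU q M ∧ ∃ c : K, c ≠ 0 ∧ M.map σ = c • M} * (q₀ + 1) =
      (q + 1) * Nat.card {M : Matrix ι ι K // IsU q M ∧ M.map σ = M} := by
  classical
  let _ : Fintype ↥(fixK σ) := Fintype.ofFinite _
  have hr0 : r ≠ 0 := by rintro rfl; simp at hr
  have hK' : Fintype.card K = (q₀ ^ r) ^ 2 := by rw [← hq]; exact hK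
  have hK₀ : Fintype.card ↥(fixK σ) = q₀ ^ 2 := card_fixK σ hr0 hσ hK'
  have hU : Nat.card {z : K // z ^ (q + 1) = 1} = q + 1 :=
    H7.card_norm_fiber_ne hK 1 one_ne_zero (one_pow q)
  have hU₀ : Nat.card {z : K // z ^ (q + 1) = 1 ∧ σ z = z} = q₀ + 1 := by
    have h1 := H7.card_norm_fiber_ne hK₀ (1 : ↥(fixK σ)) one_ne_zero (one_pow q₀)
    rw [← h1]
    refine Nat.card_congr ?_
    exact
      { toFun := fun z => ⟨⟨z.1, (mem_fixK σ _).mpr z.2.2⟩, Subtype.ext (by
            show z.1 ^ (q₀ + 1) = 1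
            have h2 := pow_eq_of_mem_fixK σ hr hσ hK' z.1 ((mem_fixK σ _).mpr z.2.2)
            rw [pow_succ, ← h2, ← hq, ← pow_succ]; exact z.2.1)⟩
        invFun := fun x => ⟨x.1.1, by
            have h2 := pow_eq_of_mem_fixK σ hr hσ hK' x.1.1 x.1.2
            rw [← hq] at h2
            rw [pow_succ, h2, ← pow_succ]; exact congrArg Subtype.val x.2,
            (mem_fixK σ _).mp x.1.2⟩
        left_inv := fun z => rfl
        right_inv := fun x => rfl }
  rw [← hU, ← hU₀]
  apply double_count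
    (fun (M : {M : Matrix ι ι K // IsU q M ∧ ∃ c : K, c ≠ 0 ∧ M.map σ = c • M})
      (z : {z : K // z ^ (q + 1) = 1}) => M.1.map σ = (σ z.1 / z.1) • M.1)
  · -- fibre over `M`
    rintro ⟨M, hM, c, hc, hMc⟩
    obtain ⟨z₀, hz₀, hz₀c⟩ := exists_z hr hq hK σ hσ M hM c hMc
    have hz₀0 : z₀ ≠ 0 := by
      rintro rfl
      rw [zero_pow (Nat.succ_ne_zero q)] at hz₀
      exact zero_ne_one hz₀
    obtain ⟨a, b, hab⟩ := isU_ne_zero M hM
    have hiff : ∀ z : K, z ≠ 0 → (M.map σ = (σ z / z) • M ↔ σ z = c * z) := by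
      intro z hz
      constructor
      · intro h
        rw [hMc] at h
        have h2 := congrFun (congrFun h a) b
        simp only [Matrix.smul_apply, smul_eq_mul] at h2
        have h3 := mul_right_cancel₀ hab h2
        rw [h3]; field_simp
      · intro h
        rw [hMc, h]
        congr 1
        field_simp
    have hne : ∀ z : K, z ^ (q + 1) = 1 → z ≠ 0 := by
      rintro z hz rfl
      rw [zero_pow (Nat.succ_ne_zero q)] at hz
      exact zero_ne_one hz
    refine ⟨
      { toFun := fun z => ⟨z.1.1 / z₀, by rw [div_pow, z.1.2, hz₀, div_one], by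
            rw [map_div₀, (hiff z.1.1 (hne _ z.1.2)).mp z.2, hz₀c]
            field_simp⟩
        invFun := fun u => ⟨⟨u.1 * z₀, by rw [mul_pow, u.2.1, hz₀, one_mul]⟩,
            (hiff _ (mul_ne_zero (hne _ u.2.1) hz₀0)).mpr (by
              rw [map_mul, u.2.2, hz₀c]; ring)⟩
        left_inv := fun z => Subtype.ext (Subtype.ext (div_mul_cancel₀ _ hz₀0))
        right_inv := fun u => Subtype.ext (mul_div_cancel_right₀ _ hz₀0) }⟩
  · -- fibre over `z`
    rintro ⟨z, hz⟩
    have hz0 : z ≠ 0 := by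
      rintro rfl
      rw [zero_pow (Nat.succ_ne_zero q)] at hz
      exact zero_ne_one hz
    have hσz0 : σ z ≠ 0 := by
      intro h
      exact hz0 ((map_eq_zero σ).mp h)
    refine ⟨
      { toFun := fun M => ⟨z⁻¹ • M.1.1, isU_smul z⁻¹ (by rw [inv_pow, hz, inv_one]) _ M.1.2.1, by
            rw [map_smul_mat, M.2, smul_smul, map_inv₀]
            congr 1
            field_simp⟩
        invFun := fun N => ⟨⟨z • N.1, isU_smul z hz _ N.2.1, σ z / z, div_ne_zero hσz0 hz0, by
            rw [map_smul_mat, N.2.2, smul_smul]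
            congr 1
            field_simp⟩, by
            show (z • N.1).map σ = (σ z / z) • (z • N.1)
            rw [map_smul_mat, N.2.2, smul_smul]
            congr 1
            field_simp⟩
        left_inv := fun M => Subtype.ext (Subtype.ext (by
          show z • (z⁻¹ • M.1.1) = M.1.1
          rw [smul_smul, mul_inv_cancel₀ hz0, one_smul]))
        right_inv := fun N => Subtype.ext (by
          show z⁻¹ • (z • N.1) = N.1
          rw [smul_smul, inv_mul_cancel₀ hz0, one_smul]) }⟩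

theorem isU_map_subtype {q₀ q r : ℕ} (hr : Odd r) (hq : q = q₀ ^ r)
    (hK : Fintype.card K = q ^ 2) (σ : K ≃+* K) (hσ : orderOf σ = r)
    (M₀ : Matrix ι ι ↥(fixK σ)) :
    IsU q (M₀.map (fixK σ).subtype) ↔ IsU q₀ M₀ := by
  have hK' : Fintype.card K = (q₀ ^ r) ^ 2 := by rw [← hq]; exact hK
  unfold IsU
  have h1 : (M₀.map (fixK σ).subtype).map (fun x => x ^ q) =
      (M₀.map (fun x => x ^ q₀)).map (fixK σ).subtype := by
    ext a b
    simp only [Matrix.map_apply]
    have h2 := pow_eq_of_mem_fixK σ hr hσ hK' _ (M₀ a b).2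
    rw [← hq] at h2
    simpa using h2
  rw [h1, ← Matrix.transpose_map, ← Matrix.map_mul (f := (fixK σ).subtype)]
  have h3 : (1 : Matrix ι ι K) = (1 : Matrix ι ι ↥(fixK σ)).map (fixK σ).subtype := by
    ext a b; simp [Matrix.one_apply, apply_ite]
  rw [h3]
  constructor
  · intro h
    exact Matrix.map_injective (fixK σ).subtype.injective h
  · intro h; rw [h]

theorem card_H {q₀ q r : ℕ} (hr : Odd r) (hq : q = q₀ ^ r)
    (hK : Fintype.card K = q ^ 2) (σ : K ≃+* K) (hσ : orderOf σ = r) :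
    Nat.card {M : Matrix ι ι K // IsU q M ∧ M.map σ = M} =
      Nat.card {M : Matrix ι ι ↥(fixK σ) // IsU q₀ M} := by
  refine Nat.card_congr ?_
  exact
    { toFun := fun M => ⟨Matrix.of (fun i j => (⟨M.1 i j, (mem_fixK σ _).mpr (by
          have := congrFun (congrFun M.2.2 i) j
          simpa using this)⟩ : ↥(fixK σ))),
          (isU_map_subtype hr hq hK σ hσ _).mp (by
            have h : (Matrix.of (fun i j => (⟨M.1 i j, (mem_fixK σ _).mpr (by
              have := congrFun (congrFun M.2.2 i) j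
              simpa using this)⟩ : ↥(fixK σ)))).map (fixK σ).subtype = M.1 := by
              ext a b; rfl
            rw [h]; exact M.2.1)⟩
      invFun := fun M₀ => ⟨M₀.1.map (fixK σ).subtype,
          (isU_map_subtype hr hq hK σ hσ _).mpr M₀.2, by
            ext a b
            simp only [Matrix.map_apply]
            exact (mem_fixK σ _).mp (M₀.1 a b).2⟩
      left_inv := fun M => Subtype.ext (by ext a b; rfl)
      right_inv := fun M₀ => Subtype.ext (by ext a b; rfl) }

theorem card_main {q₀ q r n : ℕ} (hr : Odd r) (hn : 1 ≤ n) (hq : q = q₀ ^ r)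
    (hK : Fintype.card K = q ^ 2) (σ : K ≃+* K) (hσ : orderOf σ = r) :
    Nat.card {g : ↥(Cfsg.GU n K q) // ∃ c : K, c ≠ 0 ∧
        ((g : GL (Fin n) K) : Matrix (Fin n) (Fin n) K).map σ =
          c • ((g : GL (Fin n) K) : Matrix (Fin n) (Fin n) K)} * (q₀ + 1) =
      (q + 1) * Nat.card ↥(Cfsg.GU n ↥(fixK σ) q₀) := by
  classical
  let _ : Fintype ↥(fixK σ) := Fintype.ofFinite _
  have hr0 : r ≠ 0 := by rintro rfl; simp at hr
  have hK' : Fintype.card K = (q₀ ^ r) ^ 2 := by rw [← hq]; exact hK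
  have hK₀ : Fintype.card ↥(fixK σ) = q₀ ^ 2 := card_fixK σ hr0 hσ hK'
  have : Nonempty (Fin n) := ⟨⟨0, hn⟩⟩
  have e1 : Nat.card {g : ↥(Cfsg.GU n K q) // ∃ c : K, c ≠ 0 ∧
        ((g : GL (Fin n) K) : Matrix (Fin n) (Fin n) K).map σ =
          c • ((g : GL (Fin n) K) : Matrix (Fin n) (Fin n) K)} =
      Nat.card {M : Matrix (Fin n) (Fin n) K // IsU q M ∧ ∃ c : K, c ≠ 0 ∧ M.map σ = c • M} := by
    refine Nat.card_congr ?_
    exact ((guEquiv (ι := Fin n) hK).subtypeEquiv (by intro g; rfl)).trans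
      (Equiv.subtypeSubtypeEquivSubtypeInter _ _)
  have e2 : Nat.card ↥(Cfsg.GU n ↥(fixK σ) q₀) =
      Nat.card {M : Matrix (Fin n) (Fin n) ↥(fixK σ) // IsU q₀ M} :=
    Nat.card_congr (guEquiv (ι := Fin n) hK₀)
  rw [e1, e2, ← card_H hr hq hK σ hσ]
  exact card_S hr hq hK σ hσ

end Count

end Cfsg.Agent.H50.GUFix
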