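import Mathlib
import Cfsg.Agent.H50.GUFix

set_option autoImplicit false

namespace Cfsg.Agent.H50.GLFix

open Cfsg Matrix
open Cfsg.Agent.H50.GUFix

variable {K : Type*} [Field K] [Fintype K] {ι : Type} [Fintype ι] [DecidableEq ι]

/-- The fixed field of an automorphism of order `r` of a field with `a ^ r` elements has
`a` elements. -/
theorem card_fixK' (σ : K ≃+* K) {a r : ℕ} (hr : r ≠ 0) (hσ : orderOf σ = r)
    (hK : Fintype.card K = a ^ r) [Fintype ↥(fixK σ)] :
    Fintype.card ↥(fixK σ) = a := by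
  classical
  have hfin : Finite ↥(Subgroup.zpowers σ) := by
    apply Nat.finite_of_card_ne_zero
    rw [Nat.card_zpowers, hσ]
    exact hr
  let _ : Fintype ↥(Subgroup.zpowers σ) := Fintype.ofFinite _
  have h1 : Module.finrank ↥(fixK σ) K = r := by
    have := FixedPoints.finrank_eq_card ↥(Subgroup.zpowers σ) K
    rw [← Nat.card_eq_fintype_card, Nat.card_zpowers, hσ] at this
    exact this
  have h2 := Module.card_eq_pow_finrank (K := ↥(fixK σ)) (V := K)
  rw [h1, hK] at h2
  exact (Nat.pow_left_injective hr h2).symm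

omit [Fintype K] in
theorem isUnit_smul_mat (z : K) (hz : z ≠ 0) (M : Matrix ι ι K) (hM : IsUnit M) :
    IsUnit (z • M) := by
  rw [Matrix.isUnit_iff_isUnit_det] at hM ⊢
  rw [Matrix.det_smul]
  exact (IsUnit.pow _ (isUnit_iff_ne_zero.mpr hz)).mul hM

omit [Fintype K] in
theorem isUnit_ne_zero [Nonempty ι] (M : Matrix ι ι K) (hM : IsUnit M) : ∃ a b, M a b ≠ 0 := by
  by_contra hcon
  push_neg at hcon
  have : M = 0 := by ext a b; exact hcon a b
  rw [this] at hM
  exact not_isUnit_zero hM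

omit [Fintype K] in
theorem exists_z' [Nonempty ι] {r : ℕ} (hr0 : r ≠ 0) (σ : K ≃+* K) (hσ : orderOf σ = r)
    (M : Matrix ι ι K) (hM : IsUnit M) (c : K) (hMc : M.map σ = c • M) :
    ∃ z : K, z ≠ 0 ∧ σ z = c * z := by
  obtain ⟨a, b, hab⟩ := isUnit_ne_zero M hM
  have hN : pn σ c r = 1 := by
    have h1 := map_pow_iter σ c M hMc r
    rw [← hσ, pow_orderOf_eq_one] at h1
    have h2 := congrFun (congrFun h1 a) b
    simp only [Matrix.map_apply, Matrix.smul_apply, smul_eq_mul, RingAut.one_apply] at h2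
    have h3 : (pn σ c (orderOf σ) - 1) * M a b = 0 := by rw [sub_mul, ← h2]; ring
    rcases mul_eq_zero.mp h3 with h | h
    · rw [← hσ]; exact sub_eq_zero.mp h
    · exact absurd h hab
  obtain ⟨b', hb0, hb⟩ := hilbert90 σ hσ (Nat.pos_of_ne_zero hr0) c hN
  have hσb0 : σ b' ≠ 0 := by
    intro h; rw [h, mul_zero] at hb; exact hb0 hb.symm
  refine ⟨b'⁻¹, inv_ne_zero hb0, ?_⟩
  rw [map_inv₀]
  field_simp
  rw [mul_comm]; exact hb.symm

theorem card_S' [Nonempty ι] {a r : ℕ} (hr0 : r ≠ 0) (hK : Fintype.card K = a ^ r)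
    (σ : K ≃+* K) (hσ : orderOf σ = r) :
    Nat.card {M : Matrix ι ι K // IsUnit M ∧ ∃ c : K, c ≠ 0 ∧ M.map σ = c • M} * (a - 1) =
      (a ^ r - 1) * Nat.card {M : Matrix ι ι K // IsUnit M ∧ M.map σ = M} := by
  classical
  let _ : Fintype ↥(fixK σ) := Fintype.ofFinite _
  have hK₀ : Fintype.card ↥(fixK σ) = a := card_fixK' σ hr0 hσ hK
  have hU : Nat.card {z : K // z ≠ 0} = a ^ r - 1 := by
    rw [← Nat.card_congr (unitsEquivNeZero (G₀ := K)), Nat.card_units, Nat.card_eq_fintype_card, hK]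
  have hU₀ : Nat.card {z : K // z ≠ 0 ∧ σ z = z} = a - 1 := by
    have h1 : Nat.card {z : ↥(fixK σ) // z ≠ 0} = a - 1 := by
      rw [← Nat.card_congr (unitsEquivNeZero (G₀ := ↥(fixK σ))), Nat.card_units,
        Nat.card_eq_fintype_card, hK₀]
    rw [← h1]
    refine Nat.card_congr ?_
    exact
      { toFun := fun z => ⟨⟨z.1, (mem_fixK σ _).mpr z.2.2⟩, by
            intro h; exact z.2.1 (congrArg Subtype.val h)⟩
        invFun := fun x => ⟨x.1.1, by
            intro h; exact x.2 (Subtype.ext h), (mem_fixK σ _).mp x.1.2⟩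
        left_inv := fun z => rfl
        right_inv := fun x => rfl }
  rw [← hU, ← hU₀]
  apply double_count
    (fun (M : {M : Matrix ι ι K // IsUnit M ∧ ∃ c : K, c ≠ 0 ∧ M.map σ = c • M})
      (z : {z : K // z ≠ 0}) => M.1.map σ = (σ z.1 / z.1) • M.1)
  · -- fibre over `M`
    rintro ⟨M, hM, c, hc, hMc⟩
    obtain ⟨z₀, hz₀0, hz₀c⟩ := exists_z' hr0 σ hσ M hM c hMc
    obtain ⟨a, b, hab⟩ := isUnit_ne_zero M hM
    have hiff : ∀ z : K, z ≠ 0 → (M.map σ = (σ z / z) • M ↔ σ z = c * z) := by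
      intro z hz
      constructor
      · intro h
        rw [hMc] at h
        have h2 := congrFun (congrFun h a) b
        simp only [Matrix.smul_apply, smul_eq_mul] at h2
        have h3 := mul_right_cancel₀ hab h2
        rw [h3]; field_simp
      · intro h
        rw [hMc, h]
        congr 1
        field_simp
    refine ⟨
      { toFun := fun z => ⟨z.1.1 / z₀, div_ne_zero z.1.2 hz₀0, by
            rw [map_div₀, (hiff z.1.1 z.1.2).mp z.2, hz₀c]
            field_simp⟩
        invFun := fun u => ⟨⟨u.1 * z₀, mul_ne_zero u.2.1 hz₀0⟩,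
            (hiff _ (mul_ne_zero u.2.1 hz₀0)).mpr (by
              rw [map_mul, u.2.2, hz₀c]; ring)⟩
        left_inv := fun z => Subtype.ext (Subtype.ext (div_mul_cancel₀ _ hz₀0))
        right_inv := fun u => Subtype.ext (mul_div_cancel_right₀ _ hz₀0) }⟩
  · -- fibre over `z`
    rintro ⟨z, hz0⟩
    have hσz0 : σ z ≠ 0 := by
      intro h
      exact hz0 ((map_eq_zero σ).mp h)
    refine ⟨
      { toFun := fun M => ⟨z⁻¹ • M.1.1, isUnit_smul_mat z⁻¹ (inv_ne_zero hz0) _ M.1.2.1, by
            rw [map_smul_mat, M.2, smul_smul, map_inv₀]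
            congr 1
            field_simp⟩
        invFun := fun N => ⟨⟨z • N.1, isUnit_smul_mat z hz0 _ N.2.1, σ z / z,
            div_ne_zero hσz0 hz0, by
            rw [map_smul_mat, N.2.2, smul_smul]
            congr 1
            field_simp⟩, by
            show (z • N.1).map σ = (σ z / z) • (z • N.1)
            rw [map_smul_mat, N.2.2, smul_smul]
            congr 1
            field_simp⟩
        left_inv := fun M => Subtype.ext (Subtype.ext (by
          show z • (z⁻¹ • M.1.1) = M.1.1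
          rw [smul_smul, mul_inv_cancel₀ hz0, one_smul]))
        right_inv := fun N => Subtype.ext (by
          show z⁻¹ • (z • N.1) = N.1
          rw [smul_smul, inv_mul_cancel₀ hz0, one_smul]) }⟩

omit [Fintype K] in
theorem isUnit_map_subtype (σ : K ≃+* K) (M₀ : Matrix ι ι ↥(fixK σ)) :
    IsUnit (M₀.map (fixK σ).subtype) ↔ IsUnit M₀ := by
  rw [Matrix.isUnit_iff_isUnit_det, Matrix.isUnit_iff_isUnit_det]
  have h1 : (M₀.map (fixK σ).subtype).det = (fixK σ).subtype M₀.det := by
    rw [RingHom.map_det]; rfl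
  rw [h1, isUnit_iff_ne_zero, isUnit_iff_ne_zero]
  exact map_ne_zero _

omit [Fintype K] in
theorem card_H' (σ : K ≃+* K) :
    Nat.card {M : Matrix ι ι K // IsUnit M ∧ M.map σ = M} = Nat.card (GL ι ↥(fixK σ)) := by
  refine Nat.card_congr ?_
  refine Equiv.trans (?_ : _ ≃ {M : Matrix ι ι ↥(fixK σ) // IsUnit M}) ?_
  · exact
    { toFun := fun M => ⟨Matrix.of (fun i j => (⟨M.1 i j, (mem_fixK σ _).mpr (by
          have := congrFun (congrFun M.2.2 i) j
          simpa using this)⟩ : ↥(fixK σ))),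
          (isUnit_map_subtype σ _).mp (by
            have h : (Matrix.of (fun i j => (⟨M.1 i j, (mem_fixK σ _).mpr (by
              have := congrFun (congrFun M.2.2 i) j
              simpa using this)⟩ : ↥(fixK σ)))).map (fixK σ).subtype = M.1 := by
              ext a b; rfl
            rw [h]; exact M.2.1)⟩
      invFun := fun M₀ => ⟨M₀.1.map (fixK σ).subtype,
          (isUnit_map_subtype σ _).mpr M₀.2, by
            ext a b
            simp only [Matrix.map_apply]
            exact (mem_fixK σ _).mp (M₀.1 a b).2⟩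
      left_inv := fun M => Subtype.ext (by ext a b; rfl)
      right_inv := fun M₀ => Subtype.ext (by ext a b; rfl) }
  · exact (Equiv.ofBijective (fun g : GL ι ↥(fixK σ) => (⟨g.1, g.isUnit⟩ :
      {M : Matrix ι ι ↥(fixK σ) // IsUnit M})) (by
        constructor
        · intro g g' h
          exact Units.ext (congrArg Subtype.val h)
        · rintro ⟨M, hM⟩
          exact ⟨hM.unit, rfl⟩)).symm

theorem card_main' {a r n : ℕ} (hr0 : r ≠ 0) (hn : 1 ≤ n) (hK : Fintype.card K = a ^ r)
    (σ : K ≃+* K) (hσ : orderOf σ = r) :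
    Nat.card {g : GL (Fin n) K // ∃ c : K, c ≠ 0 ∧
        (g : Matrix (Fin n) (Fin n) K).map σ = c • (g : Matrix (Fin n) (Fin n) K)} * (a - 1) =
      (a ^ r - 1) * ∏ i : Fin n, (a ^ n - a ^ (i : ℕ)) := by
  classical
  let _ : Fintype ↥(fixK σ) := Fintype.ofFinite _
  have hK₀ : Fintype.card ↥(fixK σ) = a := card_fixK' σ hr0 hσ hK
  have : Nonempty (Fin n) := ⟨⟨0, hn⟩⟩
  have e1 : Nat.card {g : GL (Fin n) K // ∃ c : K, c ≠ 0 ∧
        (g : Matrix (Fin n) (Fin n) K).map σ = c • (g : Matrix (Fin n) (Fin n) K)} =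
      Nat.card {M : Matrix (Fin n) (Fin n) K // IsUnit M ∧ ∃ c : K, c ≠ 0 ∧ M.map σ = c • M} := by
    refine Nat.card_congr ?_
    exact ((Equiv.ofBijective (fun g : GL (Fin n) K => (⟨g.1, g.isUnit⟩ :
      {M : Matrix (Fin n) (Fin n) K // IsUnit M})) (by
        constructor
        · intro g g' h
          exact Units.ext (congrArg Subtype.val h)
        · rintro ⟨M, hM⟩
          exact ⟨hM.unit, rfl⟩)).subtypeEquiv (by intro g; rfl)).trans
      (Equiv.subtypeSubtypeEquivSubtypeInter _ _)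
  have e2 := Matrix.card_GL_field (𝔽 := ↥(fixK σ)) n
  rw [hK₀] at e2
  rw [e1, ← e2, ← card_H' σ]
  exact card_S' hr0 hK σ hσ

end Cfsg.Agent.H50.GLFix
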