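import Mathlib
import Cfsg.Agent.H50.GUEmb
import Cfsg.Agent.H50.OMinus
import Cfsg.Agent.H50.QuadExt

set_option autoImplicit false

namespace Cfsg.Agent.H50.GUOrth

open Cfsg Matrix
open Cfsg.Agent.H50.GUEmb

section Orth

variable {F K : Type*} [Field F] [Fintype F] [Field K] [Fintype K] [Algebra F K] {q : ℕ}

theorem exists_st (hF : Fintype.card F = q) (hK : Fintype.card K = q ^ 2) (θ : K)
    (hθ : θ ^ q ≠ θ) :
    ∃ s t : F, algebraMap F K s = θ + θ ^ q ∧ algebraMap F K t = θ * θ ^ q := by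
  obtain ⟨s, hs⟩ := exists_of_pow_q_eq hF hK θ hθ (θ + θ ^ q) (by
    rw [H7.add_pow_q hK, H7.pow_q_pow_q hK]; ring)
  obtain ⟨t, ht⟩ := exists_of_pow_q_eq hF hK θ hθ (θ * θ ^ q) (by
    rw [mul_pow, H7.pow_q_pow_q hK]; ring)
  exact ⟨s, t, hs, ht⟩

/-- The norm form in the coordinates of the basis `(1, θ)`. -/
theorem norm_repr (hF : Fintype.card F = q) (hK : Fintype.card K = q ^ 2) (θ : K)
    (hθ : θ ^ q ≠ θ) (s t : F) (hs : algebraMap F K s = θ + θ ^ q)
    (ht : algebraMap F K t = θ * θ ^ q) (x : K) :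
    x * x ^ q = algebraMap F K (((quadBasis hF hK θ hθ).repr x 0) ^ 2 +
      s * (quadBasis hF hK θ hθ).repr x 0 * (quadBasis hF hK θ hθ).repr x 1 +
      t * ((quadBasis hF hK θ hθ).repr x 1) ^ 2) := by
  have hx := quad_repr hF hK θ hθ x
  have hxq := quad_repr_pow hF hK θ hθ x
  generalize ((quadBasis hF hK θ hθ).repr x) 0 = x0 at hx hxq ⊢
  generalize ((quadBasis hF hK θ hθ).repr x) 1 = x1 at hx hxq ⊢
  rw [hxq]
  conv_lhs => rw [hx]
  simp only [map_add, map_mul, map_pow, hs, ht]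
  ring

omit [Fintype F] [Fintype K] in
/-- The isometry from `⊕ N` (in pairs) to the hyperbolic form. -/
noncomputable def psiPlus (b : Module.Basis (Fin 2) F K) (s t : F) (υ : K) (k : ℕ) :
    (Fin (k + k) → K) →ₗ[F] (Fin (k + k) ⊕ Fin (k + k) → F) where
  toFun u := Sum.elim
    (Fin.addCases
      (fun j => b.repr (u (Fin.castAdd k j)) 0 - b.repr (u (Fin.natAdd k j) * υ⁻¹) 0)
      (fun j => b.repr (u (Fin.castAdd k j)) 1 - b.repr (u (Fin.natAdd k j) * υ⁻¹) 1))
    (Fin.addCases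
      (fun j => b.repr (u (Fin.castAdd k j)) 0 + b.repr (u (Fin.natAdd k j) * υ⁻¹) 0 +
        s * b.repr (u (Fin.castAdd k j)) 1)
      (fun j => s * b.repr (u (Fin.natAdd k j) * υ⁻¹) 0 + t * b.repr (u (Fin.castAdd k j)) 1 +
        t * b.repr (u (Fin.natAdd k j) * υ⁻¹) 1))
  map_add' u v := by
    ext (i | i) <;> induction i using Fin.addCases <;>
      simp only [Sum.elim_inl, Sum.elim_inr, Fin.addCases_left, Fin.addCases_right, Pi.add_apply,
        add_mul, map_add, Finsupp.coe_add] <;> ring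
  map_smul' c u := by
    ext (i | i) <;> induction i using Fin.addCases <;>
      simp only [Sum.elim_inl, Sum.elim_inr, Fin.addCases_left, Fin.addCases_right, Pi.smul_apply,
        smul_mul_assoc, map_smul, Finsupp.coe_smul, smul_eq_mul, RingHom.id_apply] <;> ring

theorem psiPlus_form (hF : Fintype.card F = q) (hK : Fintype.card K = q ^ 2) (θ : K)
    (hθ : θ ^ q ≠ θ) (s t : F) (hs : algebraMap F K s = θ + θ ^ q)
    (ht : algebraMap F K t = θ * θ ^ q) (υ : K) (hυ : υ ^ (q + 1) = -1) (k : ℕ)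
    (u : Fin (k + k) → K) :
    algebraMap F K (quadFormPlus (k + k) F (psiPlus (quadBasis hF hK θ hθ) s t υ k u)) =
      H7.hermI (Fin (k + k)) K q u u := by
  unfold quadFormPlus H7.hermI
  rw [Fin.sum_univ_add, Fin.sum_univ_add, map_add, map_sum, map_sum]
  simp only [psiPlus, LinearMap.coe_mk, AddHom.coe_mk, Sum.elim_inl, Sum.elim_inr,
    Fin.addCases_left, Fin.addCases_right]
  rw [← Finset.sum_add_distrib, ← Finset.sum_add_distrib]
  apply Finset.sum_congr rfl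
  intro j _
  have hx := norm_repr hF hK θ hθ s t hs ht (u (Fin.castAdd k j))
  have hy' := norm_repr hF hK θ hθ s t hs ht (u (Fin.natAdd k j) * υ⁻¹)
  have hυ0 : υ ≠ 0 := by
    rintro rfl
    rw [zero_pow (Nat.succ_ne_zero q)] at hυ
    exact (neg_ne_zero.mpr one_ne_zero) hυ.symm
  have hy : u (Fin.natAdd k j) * u (Fin.natAdd k j) ^ q =
      -((u (Fin.natAdd k j) * υ⁻¹) * (u (Fin.natAdd k j) * υ⁻¹) ^ q) := by
    have h1 : (u (Fin.natAdd k j) * υ⁻¹) * (u (Fin.natAdd k j) * υ⁻¹) ^ q =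
        u (Fin.natAdd k j) * u (Fin.natAdd k j) ^ q * (υ ^ (q + 1))⁻¹ := by
      rw [mul_pow, inv_pow, pow_succ, mul_inv]; ring
    rw [h1, hυ]
    field_simp
  rw [hx, hy, hy']
  generalize ((quadBasis hF hK θ hθ).repr (u (Fin.castAdd k j))) 0 = a
  generalize ((quadBasis hF hK θ hθ).repr (u (Fin.castAdd k j))) 1 = b
  generalize ((quadBasis hF hK θ hθ).repr (u (Fin.natAdd k j) * υ⁻¹)) 0 = c
  generalize ((quadBasis hF hK θ hθ).repr (u (Fin.natAdd k j) * υ⁻¹)) 1 = d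
  rw [← map_add, ← map_neg, ← map_add]
  congr 1
  ring

/-- Embedding of `GU` into an isometry group from an `F`-linear map which pulls back a form `Q`
to `u ↦ h(u, u)`. -/
theorem exists_isom_hom (hF : Fintype.card F = q) (hK : Fintype.card K = q ^ 2) (θ : K)
    (hθ : θ ^ q ≠ θ) {ι : Type} [Fintype ι] [DecidableEq ι] (m : ℕ)
    (hcard : Fintype.card ι = 2 * m) (Q : (ι → F) → F) (Ψ₀ : (Fin m → K) →ₗ[F] (ι → F))
    (h : ∀ u, algebraMap F K (Q (Ψ₀ u)) = H7.hermI (Fin m) K q u u) :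
    ∃ φ : ↥(GU m K q) →* ↥(isometryGroup F Q), Function.Injective φ := by
  have hinj := inj_of_quad hK θ hθ Ψ₀ Q h
  obtain ⟨Ψ, hΨ⟩ := exists_equiv hF hK Ψ₀ hinj hcard
  let f : ↥(GU m K q) →* GL ι F := (Units.map (transMat Ψ)).comp (GU m K q).subtype
  have hmem : ∀ g, f g ∈ isometryGroup F Q := by
    intro g
    rw [OMinus.mem_isometryGroup_iff]
    intro u
    show Q (transMat Ψ g.1.1 *ᵥ u) = Q u
    apply (algebraMap F K).injective
    have hu : u = Ψ₀ (Ψ.symm u) := by rw [← hΨ]; simp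
    rw [transMat_mulVec, hΨ, h]
    conv_rhs => rw [hu, h]
    exact (H7.mem_GUI_iff q g.1).mp g.2 _ _
  refine ⟨f.codRestrict _ hmem, ?_⟩
  intro g g' hgg
  have h1 : f g = f g' := congrArg Subtype.val hgg
  have h2 : transMat Ψ g.1.1 = transMat Ψ g'.1.1 := congrArg Units.val h1
  exact Subtype.ext (Units.ext (transMat_injective Ψ h2))

omit [Fintype K] in
theorem neg_one_pow_q (hF : Fintype.card F = q) : (-1 : K) ^ q = -1 := by
  have := algebraMap_pow_q (K := K) hF (-1 : F)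
  rwa [map_neg, map_one] at this

theorem exists_upsilon (hF : Fintype.card F = q) (hK : Fintype.card K = q ^ 2) :
    ∃ υ : K, υ ^ (q + 1) = -1 := by
  obtain ⟨x, hx⟩ := H7.exists_norm_eq hK (-1 : K) (neg_ne_zero.mpr one_ne_zero)
    (neg_one_pow_q hF)
  exact ⟨x, hx⟩

theorem exists_plus_hom (hF : Fintype.card F = q) (hK : Fintype.card K = q ^ 2) (k : ℕ) :
    ∃ φ : ↥(GU (k + k) K q) →* ↥(isometryGroup F (quadFormPlus (k + k) F)),
      Function.Injective φ := by
  obtain ⟨θ, hθ⟩ := exists_theta (F := F) hF hK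
  obtain ⟨s, t, hs, ht⟩ := exists_st hF hK θ hθ
  obtain ⟨υ, hυ⟩ := exists_upsilon (F := F) hF hK
  exact exists_isom_hom hF hK θ hθ (k + k) (by simp; ring) _
    (psiPlus (quadBasis hF hK θ hθ) s t υ k) (psiPlus_form hF hK θ hθ s t hs ht υ hυ k)

end Orth

end Cfsg.Agent.H50.GUOrth
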