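import Mathlib
import Cfsg.Agent.H50.GUOrth

set_option autoImplicit false

namespace Cfsg.Agent.H50.GUOrthM

open Cfsg Matrix
open Cfsg.Agent.H50.GUEmb Cfsg.Agent.H50.GUOrth

section Minus

variable {F K : Type*} [Field F] [Fintype F] [Field K] [Fintype K] [Algebra F K] {q : ℕ}

omit [Fintype F] [Fintype K] in
/-- The isometry from `⊕ N` to the minus-type form: hyperbolic on the first `2k` coordinates,
the norm form on the last. -/
noncomputable def psiMinus (b : Module.Basis (Fin 2) F K) (s t : F) (υ : K) (k : ℕ) :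
    (Fin (k + k + 1) → K) →ₗ[F] ((Fin (k + k) ⊕ Fin (k + k)) ⊕ Fin 2 → F) where
  toFun u := Sum.elim (psiPlus b s t υ k (fun i => u (Fin.castSucc i)))
    (fun e => b.repr (u (Fin.last (k + k))) e)
  map_add' u v := by
    have h : (fun i => (u + v) (Fin.castSucc i)) =
        (fun i => u (Fin.castSucc i)) + (fun i => v (Fin.castSucc i)) := rfl
    ext (i | e)
    · show (psiPlus b s t υ k) (fun i => (u + v) (Fin.castSucc i)) i = _
      rw [h, map_add]; rfl
    · simp only [Sum.elim_inr, Pi.add_apply, map_add, Finsupp.coe_add]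
  map_smul' c u := by
    have h : (fun i => (c • u) (Fin.castSucc i)) = c • (fun i => u (Fin.castSucc i)) := rfl
    ext (i | e)
    · show (psiPlus b s t υ k) (fun i => (c • u) (Fin.castSucc i)) i = _
      rw [h, map_smul]; rfl
    · simp only [Sum.elim_inr, Pi.smul_apply, map_smul, Finsupp.coe_smul, RingHom.id_apply]

theorem psiMinus_form (hF : Fintype.card F = q) (hK : Fintype.card K = q ^ 2) (θ : K)
    (hθ : θ ^ q ≠ θ) (s t : F) (hs : algebraMap F K s = θ + θ ^ q)
    (ht : algebraMap F K t = θ * θ ^ q) (υ : K) (hυ : υ ^ (q + 1) = -1) (k : ℕ)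
    (u : Fin (k + k + 1) → K) :
    algebraMap F K (quadFormMinus (k + k) F s t (psiMinus (quadBasis hF hK θ hθ) s t υ k u)) =
      H7.hermI (Fin (k + k + 1)) K q u u := by
  have h1 := psiPlus_form hF hK θ hθ s t hs ht υ hυ k (fun i => u (Fin.castSucc i))
  have h2 := norm_repr hF hK θ hθ s t hs ht (u (Fin.last (k + k)))
  unfold quadFormMinus
  unfold H7.hermI at h1 ⊢
  rw [Fin.sum_univ_castSucc, ← h1, h2, map_add]
  congr 1

theorem exists_minus_hom (hF : Fintype.card F = q) (hK : Fintype.card K = q ^ 2) (θ : K)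
    (hθ : θ ^ q ≠ θ) (s t : F) (hs : algebraMap F K s = θ + θ ^ q)
    (ht : algebraMap F K t = θ * θ ^ q) (k : ℕ) :
    ∃ φ : ↥(GU (k + k + 1) K q) →* ↥(isometryGroup F (quadFormMinus (k + k) F s t)),
      Function.Injective φ := by
  obtain ⟨υ, hυ⟩ := exists_upsilon (F := F) hF hK
  exact exists_isom_hom hF hK θ hθ (k + k + 1) (by simp; ring) _
    (psiMinus (quadBasis hF hK θ hθ) s t υ k) (psiMinus_form hF hK θ hθ s t hs ht υ hυ k)

end Minus

/-- The embedding for a given anisotropic binary form. -/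
theorem exists_minus_hom' {F K : Type*} [Field F] [Fintype F] [Field K] [Fintype K] {q : ℕ}
    (hF : Fintype.card F = q) (hK : Fintype.card K = q ^ 2) (a b : F)
    (hab : ∀ z₁ z₂ : F, z₁ ^ 2 + a * z₁ * z₂ + b * z₂ ^ 2 = 0 → z₁ = 0 ∧ z₂ = 0) (k : ℕ) :
    ∃ φ : ↥(GU (k + k + 1) K q) →* ↥(isometryGroup F (quadFormMinus (k + k) F a b)),
      Function.Injective φ := by
  obtain ⟨φ, α, β, hαβ, hφa, hφb⟩ := QuadExt.exists_roots hF hK a b hab
  letI : Algebra F K := φ.toAlgebra
  have hφ : ∀ x : F, algebraMap F K x = φ x := fun x => rfl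
  obtain ⟨θ', hθ'⟩ := exists_theta (F := F) hF hK
  -- `α ^ q` is a root of the same polynomial
  have hroot : α ^ 2 + φ a * α + φ b = 0 := by rw [hφa, hφb]; ring
  have hroot' : (α ^ q) ^ 2 + φ a * α ^ q + φ b = 0 := by
    have h1 : (α ^ 2 + φ a * α + φ b) ^ q = (0 : K) ^ q := by rw [hroot]
    rw [H7.add_pow_q hK, H7.add_pow_q hK, mul_pow, ← hφ, ← hφ, algebraMap_pow_q hF,
      algebraMap_pow_q hF, zero_pow (by have := H7.two_le_of_card_sq hK; omega)] at h1
    rw [← hφ, ← hφ, ← h1]; ring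
  have hαq : α ^ q = β := by
    have h2 : (α ^ q - α) * (α ^ q - β) = 0 := by
      rw [hφa, hφb] at hroot'
      linear_combination hroot'
    rcases mul_eq_zero.mp h2 with h | h
    · exfalso
      obtain ⟨z, hz⟩ := exists_of_pow_q_eq hF hK θ' hθ' α (sub_eq_zero.mp h)
      have h3 : z ^ 2 + a * z * 1 + b * 1 ^ 2 = 0 := by
        apply φ.injective
        rw [map_add, map_add, map_mul, map_mul, map_mul, map_pow, map_pow, map_one, map_zero,
          ← hφ z, hz]
        linear_combination hroot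
      exact one_ne_zero (hab z 1 h3).2
    · exact sub_eq_zero.mp h
  have hθq : (-α) ^ q = -β := by
    rw [neg_pow, neg_one_pow_q (K := K) hF, hαq]; ring
  have hθ : (-α) ^ q ≠ -α := by
    rw [hθq]; intro h; exact hαβ (neg_injective h).symm
  have hs : algebraMap F K a = -α + (-α) ^ q := by rw [hθq, hφ, hφa]; ring
  have ht : algebraMap F K b = -α * (-α) ^ q := by rw [hθq, hφ, hφb]; ring
  exact exists_minus_hom hF hK (-α) hθ a b hs ht k

end Cfsg.Agent.H50.GUOrthM
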