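import Mathlib
import Cfsg.Agent.H50.InvCentBase
import Cfsg.Agent.H42.SpInvMain

set_option autoImplicit false

/-! Involution centralisers in `Sp_{2m}(q)`, `q` even: the step `m → m + 1`
(helper50). -/

namespace Cfsg.Agent.H50.InvCent

open Matrix Cfsg
open Cfsg.Agent.H50.SpCard

section Ext

variable {F : Type*} [Field F] {m : ℕ}

theorem extMat_mul (A B : Matrix (Fin m ⊕ Fin m) (Fin m ⊕ Fin m) F) :
    extMat (A * B) = extMat A * extMat B := by
  apply H17.matrix_ext_mulVec
  intro x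
  rw [← Matrix.mulVec_mulVec, extMat_mulVec A, extMat_mulVec (A * B), proj_extMat,
    extMat_inl_last, extMat_inr_last, Matrix.mulVec_mulVec]

theorem extMat_one : extMat (1 : Matrix (Fin m ⊕ Fin m) (Fin m ⊕ Fin m) F) = 1 := by
  apply H17.matrix_ext_mulVec
  intro x
  rw [extMat_mulVec, Matrix.one_mulVec, Matrix.one_mulVec]
  exact (decomp x).symm

/-- The embedding `Sp(m) → Sp(m+1)`. -/
noncomputable def extSp :
    ↥(Matrix.symplecticGroup (Fin m) F) →* ↥(Matrix.symplecticGroup (Fin (m + 1)) F) where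
  toFun A := ⟨extMat A.1, extMat_mem A.1 A.2⟩
  map_one' := Subtype.ext extMat_one
  map_mul' A B := Subtype.ext (extMat_mul A.1 B.1)

theorem extSp_coe (A : ↥(Matrix.symplecticGroup (Fin m) F)) : (extSp A).1 = extMat A.1 := rfl

theorem extSp_injective : Function.Injective (extSp (F := F) (m := m)) := by
  intro A B h
  exact Subtype.ext (extMat_injective (congrArg Subtype.val h))

/-- A symplectic matrix fixing the last hyperbolic pair is an extension. -/
theorem ext_of_fixes (N : Matrix (Fin (m + 1) ⊕ Fin (m + 1)) (Fin (m + 1) ⊕ Fin (m + 1)) F)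
    (hN : N ∈ Matrix.symplecticGroup (Fin (m + 1)) F)
    (hNf : N *ᵥ H17.fVec (m + 1) F (Fin.last m) = H17.fVec (m + 1) F (Fin.last m))
    (hNe : N *ᵥ H17.eVec (m + 1) F (Fin.last m) = H17.eVec (m + 1) F (Fin.last m)) :
    ∃ A : ↥(Matrix.symplecticGroup (Fin m) F), extSp A = ⟨N, hN⟩ := by
  have hform := (H17.mem_symplecticGroup_iff_form (m + 1) N).mp hN
  have hl : ∀ w, (N *ᵥ w) (Sum.inl (Fin.last m)) = w (Sum.inl (Fin.last m)) := by
    intro w
    have h1 : sympForm (m + 1) F (H17.fVec (m + 1) F (Fin.last m)) (N *ᵥ w) =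
        sympForm (m + 1) F (H17.fVec (m + 1) F (Fin.last m)) w := by
      conv_lhs => rw [← hNf]
      exact hform _ _
    rw [sympForm_fVec_left, sympForm_fVec_left] at h1
    exact h1
  have hr : ∀ w, (N *ᵥ w) (Sum.inr (Fin.last m)) = w (Sum.inr (Fin.last m)) := by
    intro w
    have h1 : sympForm (m + 1) F (H17.eVec (m + 1) F (Fin.last m)) (N *ᵥ w) =
        sympForm (m + 1) F (H17.eVec (m + 1) F (Fin.last m)) w := by
      conv_lhs => rw [← hNe]
      exact hform _ _
    rw [sympForm_eVec_left, sympForm_eVec_left] at h1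
    exact neg_injective h1
  set A : Matrix (Fin m ⊕ Fin m) (Fin m ⊕ Fin m) F :=
    LinearMap.toMatrix' (proj F m ∘ₗ Matrix.toLin' N ∘ₗ emb F m) with hAdef
  have hA : ∀ z, A *ᵥ z = proj F m (N *ᵥ emb F m z) := by
    intro z
    rw [hAdef, ← Matrix.toLin'_apply, Matrix.toLin'_toMatrix']
    rfl
  have hNemb : ∀ z, N *ᵥ emb F m z = emb F m (A *ᵥ z) := by
    intro z
    conv_lhs => rw [decomp (N *ᵥ emb F m z)]
    rw [hl, hr, emb_inl_last, emb_inr_last, hA]
    simp
  have hAmem : A ∈ Matrix.symplecticGroup (Fin m) F := by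
    rw [H17.mem_symplecticGroup_iff_form]
    intro z w
    have h1 := hform (emb F m z) (emb F m w)
    rw [hNemb, hNemb, sympForm_succ, sympForm_succ, proj_emb, proj_emb, proj_emb, proj_emb,
      emb_inl_last, emb_inl_last, emb_inr_last, emb_inr_last, emb_inl_last, emb_inl_last,
      emb_inr_last, emb_inr_last] at h1
    simpa using h1
  refine ⟨⟨A, hAmem⟩, ?_⟩
  apply Subtype.ext
  show extMat A = N
  apply H17.matrix_ext_mulVec
  intro x
  rw [extMat_mulVec]
  conv_rhs => rw [decomp x]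
  rw [Matrix.mulVec_add, Matrix.mulVec_add, Matrix.mulVec_smul, Matrix.mulVec_smul, hNe, hNf,
    hNemb]

theorem emb_injective : Function.Injective (emb F m) := by
  intro z w h
  have := congrArg (proj F m) h
  rw [proj_emb, proj_emb] at this
  exact this

/-- `extMat A - 1` in terms of `A - 1`. -/
theorem extMat_sub_one_mulVec (A : Matrix (Fin m ⊕ Fin m) (Fin m ⊕ Fin m) F)
    (x : Fin (m + 1) ⊕ Fin (m + 1) → F) :
    (extMat A - 1) *ᵥ x = emb F m ((A - 1) *ᵥ proj F m x) := by
  rw [Matrix.sub_mulVec, Matrix.one_mulVec, extMat_mulVec, Matrix.sub_mulVec, Matrix.one_mulVec,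
    map_sub]
  conv_lhs => arg 2; rw [decomp x]
  abel

theorem rank_extMat_sub_one (A : Matrix (Fin m ⊕ Fin m) (Fin m ⊕ Fin m) F) :
    (extMat A - 1).rank = (A - 1).rank := by
  have h1 : LinearMap.range (extMat A - 1).mulVecLin =
      (LinearMap.range (A - 1).mulVecLin).map (emb F m) := by
    ext y
    constructor
    · rintro ⟨x, rfl⟩
      exact ⟨(A - 1) *ᵥ proj F m x, ⟨proj F m x, rfl⟩, (extMat_sub_one_mulVec A x).symm⟩
    · rintro ⟨z, ⟨w, rfl⟩, rfl⟩
      refine ⟨emb F m w, ?_⟩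
      show (extMat A - 1) *ᵥ emb F m w = _
      rw [extMat_sub_one_mulVec, proj_emb]
      rfl
  show Module.finrank F (LinearMap.range (extMat A - 1).mulVecLin) =
    Module.finrank F (LinearMap.range (A - 1).mulVecLin)
  rw [h1]
  exact (Submodule.equivMapOfInjective (emb F m) emb_injective _).finrank_eq.symm

theorem sympForm_extMat (A : Matrix (Fin m ⊕ Fin m) (Fin m ⊕ Fin m) F)
    (v : Fin (m + 1) ⊕ Fin (m + 1) → F) :
    sympForm (m + 1) F v (extMat A *ᵥ v) = sympForm m F (proj F m v) (A *ᵥ proj F m v) := by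
  rw [sympForm_succ, proj_extMat, extMat_inl_last, extMat_inr_last]
  ring

end Ext

section Pairs

variable {F : Type*} [Field F] [Fintype F] {q : ℕ}

/-- Counting hyperbolic pairs inside the kernel of a self-adjoint square-zero operator. -/
theorem card_ker_pairs (hF : Fintype.card F = q) (n s : ℕ)
    (N : Matrix (Fin n ⊕ Fin n) (Fin n ⊕ Fin n) F)
    (hsa : ∀ x y, sympForm n F (N *ᵥ x) y = sympForm n F x (N *ᵥ y))
    (hsq : ∀ x, N *ᵥ (N *ᵥ x) = 0) (hs : N.rank = s) :
    Nat.card {p : (Fin n ⊕ Fin n → F) × (Fin n ⊕ Fin n → F) //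
      N *ᵥ p.1 = 0 ∧ N *ᵥ p.2 = 0 ∧ sympForm n F p.1 p.2 = 1} =
      (q ^ (2 * n - s) - q ^ s) * q ^ (2 * n - s - 1) := by
  classical
  have hq : 2 ≤ q := by rw [← hF]; exact Fintype.one_lt_card
  set L := N.mulVecLin with hL
  set K := LinearMap.ker L with hK
  set R := LinearMap.range L with hR
  have hLa : ∀ x, L x = N *ᵥ x := fun x => rfl
  have hfR : Module.finrank F R = s := hs
  have hfV : Module.finrank F (Fin n ⊕ Fin n → F) = 2 * n := by
    rw [Module.finrank_fintype_fun_eq_card]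
    simp
    ring
  have hfK : Module.finrank F K = 2 * n - s := by
    have h0 : Module.finrank F R + Module.finrank F K =
        Module.finrank F (Fin n ⊕ Fin n → F) := LinearMap.finrank_range_add_finrank_ker L
    rw [hfV, hfR] at h0
    omega
  have hcK : Nat.card K = q ^ (2 * n - s) := by
    rw [Module.natCard_eq_pow_finrank (K := F), hfK, Nat.card_eq_fintype_card, hF]
  have hcR : Nat.card R = q ^ s := by
    rw [Module.natCard_eq_pow_finrank (K := F), hfR, Nat.card_eq_fintype_card, hF]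
  have hRK : R ≤ K := by
    rintro _ ⟨x, rfl⟩
    rw [hK, LinearMap.mem_ker]
    exact hsq x
  have horth : (H17.sympBilin n F).orthogonal K = R := by
    have h1 : (H17.sympBilin n F).orthogonal R = K := by
      ext v
      rw [LinearMap.BilinForm.mem_orthogonal_iff]
      constructor
      · intro h
        rw [hK, LinearMap.mem_ker]
        apply (H42.sympBilin_nondeg n).2
        intro x
        rw [H17.sympBilin_apply, hLa, ← hsa, ← H17.sympBilin_apply]
        exact h (N *ᵥ x) ⟨x, rfl⟩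
      · rintro h _ ⟨x, rfl⟩
        rw [hK, LinearMap.mem_ker, hLa] at h
        rw [hLa, H17.sympBilin_apply, hsa, h, H17.sympForm_zero_right]
    rw [← h1]
    exact LinearMap.BilinForm.orthogonal_orthogonal (H42.sympBilin_nondeg n)
      (H42.sympBilin_isAlt n).isRefl R
  have h1 := Shin.card_rel
    (fun (u v : Fin n ⊕ Fin n → F) => N *ᵥ u = 0 ∧ N *ᵥ v = 0 ∧ sympForm n F u v = 1)
    (fun u => u ∈ K ∧ u ∉ R) (Fin (q ^ (2 * n - s - 1)))
    (fun u hu => by
      obtain ⟨huK, huR⟩ := hu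
      let φ : K →ₗ[F] F := (H17.sympBilin n F u).comp K.subtype
      have hφ : φ ≠ 0 := by
        intro h0
        apply huR
        rw [← horth, LinearMap.BilinForm.mem_orthogonal_iff]
        intro k hk
        have h2 : φ ⟨k, hk⟩ = 0 := by rw [h0]; rfl
        have h3 : H17.sympBilin n F u k = 0 := h2
        rw [H17.sympBilin_apply] at h3 ⊢
        rw [H17.sympForm_swap, h3, neg_zero]
      have h2 := SpCard.card_fibre_one φ hφ
      rw [hcK, hF] at h2
      have h3 : Nat.card {v : K // φ v = 1} = q ^ (2 * n - s - 1) := by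
        rcases Nat.eq_zero_or_pos (2 * n - s) with h0 | h0
        · rw [h0, pow_zero] at h2
          have : q ∣ 1 := ⟨_, h2⟩
          have := Nat.le_of_dvd one_pos this
          omega
        · have h4 : q ^ (2 * n - s) = q * q ^ (2 * n - s - 1) := by
            rw [← pow_succ']
            congr 1
            omega
          rw [h4] at h2
          exact (Nat.eq_of_mul_eq_mul_left (by omega) h2).symm
      refine ⟨Equiv.trans ?_ (Finite.equivFinOfCardEq h3)⟩
      exact
        { toFun := fun v => ⟨⟨v.1, LinearMap.mem_ker.2 v.2.2.1⟩, by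
            show H17.sympBilin n F u v.1 = 1
            rw [H17.sympBilin_apply]
            exact v.2.2.2⟩
          invFun := fun w => ⟨w.1.1, LinearMap.mem_ker.1 huK, LinearMap.mem_ker.1 w.1.2, by
            have h5 : H17.sympBilin n F u w.1.1 = 1 := w.2
            rw [H17.sympBilin_apply] at h5
            exact h5⟩
          left_inv := fun v => rfl
          right_inv := fun w => rfl })
    (fun u v h => by
      obtain ⟨hu, hv, huv⟩ := h
      refine ⟨LinearMap.mem_ker.2 hu, ?_⟩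
      intro huR
      rw [← horth, LinearMap.BilinForm.mem_orthogonal_iff] at huR
      have h2 := huR v (LinearMap.mem_ker.2 hv)
      rw [H17.sympBilin_apply, H17.sympForm_swap, huv] at h2
      simp at h2)
  rw [h1, Nat.card_fin]
  congr 1
  show Nat.card ↥((K : Set (Fin n ⊕ Fin n → F)) \ (R : Set (Fin n ⊕ Fin n → F))) = _
  rw [Nat.card_coe_set_eq, Set.ncard_sdiff (by exact hRK), ← Nat.card_coe_set_eq,
    ← Nat.card_coe_set_eq]
  exact congrArg₂ (· - ·) hcK hcR

end Pairs

section Step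

variable {F : Type*} [Field F] [Fintype F] [CharP F 2] {q : ℕ} {m : ℕ}

/-- The centraliser of an extended involution. -/
theorem card_cent_ext (hF : Fintype.card F = q) (t : ↥(Matrix.symplecticGroup (Fin m) F))
    (ht : t.1 * t.1 = 1) (s : ℕ) (hs : (t.1 - 1).rank = s) :
    Nat.card ↥(Subgroup.centralizer
        ({extSp t} : Set ↥(Matrix.symplecticGroup (Fin (m + 1)) F))) =
      (q ^ (2 * (m + 1) - s) - q ^ s) * q ^ (2 * (m + 1) - s - 1) *
        Nat.card ↥(Subgroup.centralizer ({t} : Set ↥(Matrix.symplecticGroup (Fin m) F))) := by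
  classical
  set t' := extSp t with ht'
  have ht'1 : t'.1 = extMat t.1 := rfl
  have ht'2 : t'.1 * t'.1 = 1 := by
    rw [ht'1, ← extMat_mul, ht, extMat_one]
  set N := t'.1 - 1 with hN
  have hNrank : N.rank = s := by
    rw [hN, ht'1, rank_extMat_sub_one, hs]
  have hsa : ∀ x y, sympForm (m + 1) F (N *ᵥ x) y = sympForm (m + 1) F x (N *ᵥ y) := by
    intro x y
    have := H42.nOp_selfadj t'.1 t'.2 ht'2 x y
    rw [H17.sympBilin_apply, H17.sympBilin_apply] at this
    exact this
  have hsq : ∀ x, N *ᵥ (N *ᵥ x) = 0 := fun x => H42.nOp_sq t'.1 ht'2 x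
  have hNt : ∀ u, N *ᵥ u = 0 ↔ t'.1 *ᵥ u = u := by
    intro u
    rw [hN, Matrix.sub_mulVec, Matrix.one_mulVec, sub_eq_zero]
  set G' := Subgroup.centralizer ({t'} : Set ↥(Matrix.symplecticGroup (Fin (m + 1)) F)) with hG'
  let X := {p : (Fin (m + 1) ⊕ Fin (m + 1) → F) × (Fin (m + 1) ⊕ Fin (m + 1) → F) //
      N *ᵥ p.1 = 0 ∧ N *ᵥ p.2 = 0 ∧ sympForm (m + 1) F p.1 p.2 = 1}
  have hcomm : ∀ g : ↥G', ∀ u, N *ᵥ u = 0 → N *ᵥ (g.1.1 *ᵥ u) = 0 := by
    intro g u hu
    rw [hNt] at hu ⊢
    have hg := Subgroup.mem_centralizer_singleton_iff.mp g.2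
    have hg' : g.1.1 * t'.1 = t'.1 * g.1.1 := congrArg Subtype.val hg
    rw [Matrix.mulVec_mulVec, ← hg', ← Matrix.mulVec_mulVec, hu]
  let act : ↥G' → X → X := fun g p =>
    ⟨(g.1.1 *ᵥ p.1.1, g.1.1 *ᵥ p.1.2), hcomm g _ p.2.1, hcomm g _ p.2.2.1, by
      show sympForm (m + 1) F (g.1.1 *ᵥ p.1.1) (g.1.1 *ᵥ p.1.2) = 1
      rw [H17.sp_form]
      exact p.2.2.2⟩
  let x₀ : X := ⟨(H17.fVec (m + 1) F (Fin.last m), H17.eVec (m + 1) F (Fin.last m)),
    (hNt _).mpr (extMat_fVec t.1), (hNt _).mpr (extMat_eVec t.1), by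
      show sympForm (m + 1) F (H17.fVec (m + 1) F (Fin.last m))
        (H17.eVec (m + 1) F (Fin.last m)) = 1
      rw [H17.sympForm_f_e]
      simp⟩
  set K : Submodule F (Fin (m + 1) ⊕ Fin (m + 1) → F) := LinearMap.ker N.mulVecLin with hK
  have hKmem : ∀ u, u ∈ K ↔ N *ᵥ u = 0 := fun u => Iff.rfl
  have hle : Subgroup.closure (H17.transvSet (m + 1) K) ≤ G' := by
    rw [Subgroup.closure_le]
    rintro B ⟨w, hw, c, hB⟩
    rw [SetLike.mem_coe, hG', Subgroup.mem_centralizer_singleton_iff]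
    apply Subtype.ext
    show B.1 * t'.1 = t'.1 * B.1
    apply H17.matrix_ext_mulVec
    intro x
    have hw' : t'.1 *ᵥ w = w := (hNt w).mp ((hKmem w).mp hw)
    rw [← Matrix.mulVec_mulVec, ← Matrix.mulVec_mulVec, hB, H17.sympTransvection_mulVec,
      H17.sympTransvection_mulVec, Matrix.mulVec_add, Matrix.mulVec_smul, hw']
    congr 3
    conv_lhs => rw [← hw']
    exact H17.sp_form (m + 1) t' x w
  have h := SpCard.card_eq_card_mul_stab act
    (fun x => by
      apply Subtype.ext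
      show ((1 : Matrix _ _ F) *ᵥ x.1.1, (1 : Matrix _ _ F) *ᵥ x.1.2) = x.1
      rw [Matrix.one_mulVec, Matrix.one_mulVec])
    (fun g h x => by
      apply Subtype.ext
      show ((g.1.1 * h.1.1) *ᵥ x.1.1, (g.1.1 * h.1.1) *ᵥ x.1.2) =
        (g.1.1 *ᵥ (h.1.1 *ᵥ x.1.1), g.1.1 *ᵥ (h.1.1 *ᵥ x.1.2))
      rw [Matrix.mulVec_mulVec, Matrix.mulVec_mulVec])
    x₀
    (fun x => by
      obtain ⟨A, hA, h1, h2⟩ := H17.transv_pair (m + 1) K _ _ x.1.1 x.1.2
        ((hKmem _).mpr x₀.2.1) ((hKmem _).mpr x₀.2.2.1) ((hKmem _).mpr x.2.1)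
        ((hKmem _).mpr x.2.2.1) x₀.2.2.2 x.2.2.2
      exact ⟨⟨A, hle hA⟩, Subtype.ext (Prod.ext h1 h2)⟩)
  rw [h, card_ker_pairs hF (m + 1) s N hsa hsq hNrank]
  congr 1
  symm
  let Φ : ↥(Subgroup.centralizer ({t} : Set ↥(Matrix.symplecticGroup (Fin m) F))) →
      {g : ↥G' // act g x₀ = x₀} := fun A =>
    ⟨⟨extSp A.1, by
      rw [hG', Subgroup.mem_centralizer_singleton_iff, ht', ← map_mul, ← map_mul,
        Subgroup.mem_centralizer_singleton_iff.mp A.2]⟩,
     Subtype.ext (Prod.ext (extMat_fVec A.1.1) (extMat_eVec A.1.1))⟩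
  apply Nat.card_congr (Equiv.ofBijective Φ ⟨?_, ?_⟩)
  · intro A B h
    exact Subtype.ext (extSp_injective (congrArg (fun x => x.1.1) h))
  · rintro ⟨⟨g, hg⟩, hfix⟩
    have h1 : (g.1 *ᵥ H17.fVec (m + 1) F (Fin.last m), g.1 *ᵥ H17.eVec (m + 1) F (Fin.last m)) =
        (H17.fVec (m + 1) F (Fin.last m), H17.eVec (m + 1) F (Fin.last m)) :=
      congrArg Subtype.val hfix
    obtain ⟨A, hA⟩ := ext_of_fixes g.1 g.2 (congrArg Prod.fst h1) (congrArg Prod.snd h1)
    have hA' : extSp A = g := hA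
    refine ⟨⟨A, ?_⟩, ?_⟩
    · rw [Subgroup.mem_centralizer_singleton_iff]
      apply extSp_injective
      rw [map_mul, map_mul, hA']
      exact Subgroup.mem_centralizer_singleton_iff.mp hg
    · apply Subtype.ext
      apply Subtype.ext
      exact hA'

end Step

end Cfsg.Agent.H50.InvCent
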