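import Mathlib
import Cfsg.Agent.H50.InvCentStep
import Cfsg.Agent.H50.InvCentForms
import Cfsg.Agent.H42.SpInvCount

set_option autoImplicit false

/-! Involution centralisers in `Sp_{2m}(q)`, `q` even: assembling (helper50). -/

namespace Cfsg.Agent.H50.InvCent

open Matrix Cfsg
open Cfsg.Agent.H50.SpCard

section Iter

variable {F : Type*} [Field F] {s : ℕ}

/-- Iterated extension. -/
noncomputable def extIter (t₀ : ↥(Matrix.symplecticGroup (Fin s) F)) :
    (r : ℕ) → ↥(Matrix.symplecticGroup (Fin (s + r)) F)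
  | 0 => t₀
  | r + 1 => extSp (extIter t₀ r)

theorem extIter_sq (t₀ : ↥(Matrix.symplecticGroup (Fin s) F)) (h : t₀.1 * t₀.1 = 1) (r : ℕ) :
    (extIter t₀ r).1 * (extIter t₀ r).1 = 1 := by
  induction r with
  | zero => exact h
  | succ r ih =>
    show extMat (extIter t₀ r).1 * extMat (extIter t₀ r).1 = 1
    rw [← extMat_mul, ih, extMat_one]

theorem extIter_rank (t₀ : ↥(Matrix.symplecticGroup (Fin s) F)) (r : ℕ) :
    ((extIter t₀ r).1 - 1).rank = (t₀.1 - 1).rank := by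
  induction r with
  | zero => rfl
  | succ r ih =>
    show (extMat (extIter t₀ r).1 - 1).rank = _
    rw [rank_extMat_sub_one, ih]

theorem extIter_type (t₀ : ↥(Matrix.symplecticGroup (Fin s) F)) (r : ℕ) :
    (∀ v, sympForm (s + r) F v ((extIter t₀ r).1 *ᵥ v) = 0) ↔
      (∀ v, sympForm s F v (t₀.1 *ᵥ v) = 0) := by
  induction r with
  | zero => exact Iff.rfl
  | succ r ih =>
    rw [← ih]
    constructor
    · intro h v
      have h1 := h (emb F (s + r) v)
      have h2 := sympForm_extMat (extIter t₀ r).1 (emb F (s + r) v)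
      rw [proj_emb] at h2
      rw [← h2]
      exact h1
    · intro h v
      have h2 := sympForm_extMat (extIter t₀ r).1 v
      exact h2.trans (h _)

variable [Fintype F] [CharP F 2] {q : ℕ}

theorem card_cent_extIter (hF : Fintype.card F = q) (t₀ : ↥(Matrix.symplecticGroup (Fin s) F))
    (h2 : t₀.1 * t₀.1 = 1) (hs : (t₀.1 - 1).rank = s) (r : ℕ) :
    Nat.card ↥(Subgroup.centralizer
        ({extIter t₀ r} : Set ↥(Matrix.symplecticGroup (Fin (s + r)) F))) =
      q ^ (2 * s * r) * (q ^ (r ^ 2) * ∏ i ∈ Finset.range r, (q ^ (2 * (i + 1)) - 1)) *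
        Nat.card ↥(Subgroup.centralizer ({t₀} : Set ↥(Matrix.symplecticGroup (Fin s) F))) := by
  induction r with
  | zero => simp [extIter]
  | succ r ih =>
    have h1 := card_cent_ext hF (extIter t₀ r) (extIter_sq t₀ h2 r) s
      ((extIter_rank t₀ r).trans hs)
    have h3 : extIter t₀ (r + 1) = extSp (extIter t₀ r) := rfl
    rw [h3]
    refine h1.trans ?_
    rw [ih, Finset.prod_range_succ]
    have hq : 1 ≤ q := by rw [← hF]; exact Fintype.card_pos
    have e1 : q ^ (2 * (s + r + 1) - s) - q ^ s = q ^ s * (q ^ (2 * (r + 1)) - 1) := by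
      have : 2 * (s + r + 1) - s = s + 2 * (r + 1) := by omega
      rw [this, pow_add, Nat.mul_sub_one]
    have e2 : 2 * (s + r + 1) - s - 1 = s + 2 * r + 1 := by omega
    rw [e1, e2]
    have e3 : q ^ (2 * s * (r + 1)) * q ^ ((r + 1) ^ 2) =
        q ^ s * q ^ (s + 2 * r + 1) * (q ^ (2 * s * r) * q ^ (r ^ 2)) := by
      rw [← pow_add, ← pow_add, ← pow_add, ← pow_add]
      congr 1
      ring
    calc q ^ s * (q ^ (2 * (r + 1)) - 1) * q ^ (s + 2 * r + 1) *
          (q ^ (2 * s * r) * (q ^ (r ^ 2) * ∏ i ∈ Finset.range r, (q ^ (2 * (i + 1)) - 1)) *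
            Nat.card ↥(Subgroup.centralizer ({t₀} : Set ↥(Matrix.symplecticGroup (Fin s) F))))
        = (q ^ s * q ^ (s + 2 * r + 1) * (q ^ (2 * s * r) * q ^ (r ^ 2))) *
          ((∏ i ∈ Finset.range r, (q ^ (2 * (i + 1)) - 1)) * (q ^ (2 * (r + 1)) - 1)) *
            Nat.card ↥(Subgroup.centralizer ({t₀} : Set ↥(Matrix.symplecticGroup (Fin s) F))) := by
          ring
      _ = _ := by rw [← e3]; ring

end Iter

section Final

variable {F : Type*} [Field F] [Fintype F] [CharP F 2] {q : ℕ}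

/-- The centraliser order of an involution conjugate to a model. -/
theorem card_cent_of_model (hF : Fintype.card F = q) {s r : ℕ}
    (B C : Matrix (Fin s) (Fin s) F) (hB : Bᵀ = B) (hBC : B * C = 1)
    (t : ↥(Matrix.symplecticGroup (Fin (s + r)) F)) (ht : t.1 * t.1 = 1)
    (hrank : (t.1 - 1).rank = s)
    (htype : (∀ v, sympForm (s + r) F v (t.1 *ᵥ v) = 0) ↔
      (∀ y : Fin s → F, y ⬝ᵥ B *ᵥ y = 0)) :
    Nat.card ↥(Subgroup.centralizer ({t} : Set ↥(Matrix.symplecticGroup (Fin (s + r)) F))) =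
      q ^ (2 * s * r) * (q ^ (r ^ 2) * ∏ i ∈ Finset.range r, (q ^ (2 * (i + 1)) - 1)) *
        (Nat.card {P : Matrix (Fin s) (Fin s) F // P * B * Pᵀ = B} *
          q ^ ((s + 1).choose 2)) := by
  set t₀ : ↥(Matrix.symplecticGroup (Fin s) F) := ⟨tB B, tB_mem B hB⟩ with ht₀
  have h0sq : t₀.1 * t₀.1 = 1 := tB_sq B
  have h0rank : (t₀.1 - 1).rank = s := by
    have := rank_tB B C hBC
    rw [Fintype.card_fin] at this
    exact this
  have hconj : IsConj t (extIter t₀ r) := by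
    apply H42.sp_conj_of_type t (extIter t₀ r) ht (extIter_sq t₀ h0sq r)
    · rw [hrank, extIter_rank, h0rank]
    · rw [htype, extIter_type]
      exact (type_tB B).symm
  rw [card_centralizer_conj _ _ hconj, card_cent_extIter hF t₀ h0sq h0rank r,
    card_cent_tB B C hB hBC, card_sym, hF, Fintype.card_fin]

theorem not_alt_of_diag {n : Type*} [Fintype n] [DecidableEq n] (B : Matrix n n F) (i : n)
    (h : B i i ≠ 0) : ¬ ∀ y : n → F, y ⬝ᵥ B *ᵥ y = 0 := by
  intro h'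
  apply h
  have := h' (Pi.single i 1)
  simpa using this

theorem expo_ab (s r : ℕ) :
    2 * (s + r) * s - (3 * s ^ 2 - s) / 2 = 2 * s * r + (s + 1).choose 2 := by
  obtain ⟨c, hc⟩ := (Nat.even_mul_succ_self s).two_dvd
  have hch : (s + 1).choose 2 = c := by
    rw [Nat.choose_two_right, Nat.add_sub_cancel, mul_comm, hc, Nat.mul_div_cancel_left _ two_pos]
  have h1 : 2 * (s + r) * s = 2 * (s * s) + 2 * (s * r) := by ring
  have h2 : 3 * s ^ 2 = 3 * (s * s) := by ring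
  have h3 : 2 * s * r = 2 * (s * r) := by ring
  have h4 : s * (s + 1) = s * s + s := by ring
  have h5 : s ≤ s * s := Nat.le_mul_self s
  rw [h1, h2, h3, hch]
  rw [h4] at hc
  generalize s * s = P at *
  generalize s * r = Q at *
  omega

theorem expo_c (s r : ℕ) (hs : 1 ≤ s) :
    2 * (s + r) * s - (3 * s ^ 2 - 3 * s) / 2 - 1 = 2 * s * r + (s + 1).choose 2 + (s - 1) := by
  obtain ⟨c, hc⟩ := (Nat.even_mul_succ_self s).two_dvd
  have hch : (s + 1).choose 2 = c := by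
    rw [Nat.choose_two_right, Nat.add_sub_cancel, mul_comm, hc, Nat.mul_div_cancel_left _ two_pos]
  have h1 : 2 * (s + r) * s = 2 * (s * s) + 2 * (s * r) := by ring
  have h2 : 3 * s ^ 2 = 3 * (s * s) := by ring
  have h3 : 2 * s * r = 2 * (s * r) := by ring
  have h4 : s * (s + 1) = s * s + s := by ring
  have h5 : s ≤ s * s := Nat.le_mul_self s
  rw [h1, h2, h3, hch]
  rw [h4] at hc
  generalize s * s = P at *
  generalize s * r = Q at *
  omega

/-- Type `b_s` (`s` odd). -/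
theorem card_cent_b (hF : Fintype.card F = q) {m s : ℕ}
    (t : Matrix.symplecticGroup (Fin m) F) (ht : t ^ 2 = 1)
    (hs : ((t : Matrix (Fin m ⊕ Fin m) (Fin m ⊕ Fin m) F) - 1).rank = s) (hodd : Odd s) :
    Nat.card ↥(Subgroup.centralizer ({t} : Set ↥(Matrix.symplecticGroup (Fin m) F))) =
      q ^ (2 * m * s - (3 * s ^ 2 - s) / 2) *
        ((q : ℕ) ^ (((s - 1) / 2) ^ 2) * ∏ i : Fin ((s - 1) / 2), (q ^ (2 * ((i : ℕ) + 1)) - 1)) *
        ((q : ℕ) ^ ((m - s) ^ 2) * ∏ i : Fin (m - s), (q ^ (2 * ((i : ℕ) + 1)) - 1)) := by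
  have ht' : t.1 * t.1 = 1 := by
    have := congrArg Subtype.val ht
    rw [pow_two] at this
    exact this
  have ht1 : t ≠ 1 := by
    rintro rfl
    have h0 : ((1 : ↥(Matrix.symplecticGroup (Fin m) F)).1 - 1).rank = 0 := by
      show ((1 : Matrix (Fin m ⊕ Fin m) (Fin m ⊕ Fin m) F) - 1).rank = 0
      rw [sub_self, Matrix.rank_zero]
    rw [h0] at hs
    rw [← hs] at hodd
    exact absurd hodd (by decide)
  obtain ⟨-, hsm⟩ := H42.sp_rank_bounds t ht' ht1
  rw [hs] at hsm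
  obtain ⟨r, rfl⟩ : ∃ r, m = s + r := ⟨m - s, by omega⟩
  obtain ⟨k, rfl⟩ := hodd
  obtain ⟨B, C, hB, hBC, hcard, halt, hdiag⟩ := transfer
    (Fintype.equivFinOfCardEq (by simp; omega : Fintype.card (Unit ⊕ (Fin k ⊕ Fin k)) = 2 * k + 1))
    (Bodd F k) (Bodd F k) (Bodd_transpose k) (Bodd_mul_self k)
  have htype : (∀ v, sympForm (2 * k + 1 + r) F v (t.1 *ᵥ v) = 0) ↔
      (∀ y : Fin (2 * k + 1) → F, y ⬝ᵥ B *ᵥ y = 0) := by
    constructor
    · intro h
      have h1 := H42.sp_even_rank_of_alt t ht' h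
      rw [hs] at h1
      exact absurd h1 (by simp)
    · intro h
      have hd := hdiag (Sum.inl ())
      rw [Bodd_diag] at hd
      exact absurd h (not_alt_of_diag B _ (by rw [hd]; exact one_ne_zero))
  rw [card_cent_of_model hF B C hB hBC t ht' hs htype, hcard, card_isom_Bodd, SpCard.card_sp hF k,
    Fin.prod_univ_eq_prod_range (fun i => q ^ (2 * (i + 1)) - 1) ((2 * k + 1 - 1) / 2),
    Fin.prod_univ_eq_prod_range (fun i => q ^ (2 * (i + 1)) - 1) (2 * k + 1 + r - (2 * k + 1)),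
    expo_ab]
  have e1 : (2 * k + 1 - 1) / 2 = k := by omega
  have e2 : 2 * k + 1 + r - (2 * k + 1) = r := by omega
  rw [e1, e2, pow_add]
  ring

/-- Type `a_s` (`s` even, alternating). -/
theorem card_cent_a (hF : Fintype.card F = q) {m s : ℕ}
    (t : Matrix.symplecticGroup (Fin m) F) (ht : t ^ 2 = 1) (ht1 : t ≠ 1)
    (hs : ((t : Matrix (Fin m ⊕ Fin m) (Fin m ⊕ Fin m) F) - 1).rank = s) (heven : Even s)
    (halt : ∀ v : Fin m ⊕ Fin m → F, Cfsg.sympForm m F v
      ((t : Matrix (Fin m ⊕ Fin m) (Fin m ⊕ Fin m) F).mulVec v) = 0) :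
    Nat.card ↥(Subgroup.centralizer ({t} : Set ↥(Matrix.symplecticGroup (Fin m) F))) =
      q ^ (2 * m * s - (3 * s ^ 2 - s) / 2) *
        ((q : ℕ) ^ ((s / 2) ^ 2) * ∏ i : Fin (s / 2), (q ^ (2 * ((i : ℕ) + 1)) - 1)) *
        ((q : ℕ) ^ ((m - s) ^ 2) * ∏ i : Fin (m - s), (q ^ (2 * ((i : ℕ) + 1)) - 1)) := by
  have ht' : t.1 * t.1 = 1 := by
    have := congrArg Subtype.val ht
    rw [pow_two] at this
    exact this
  obtain ⟨-, hsm⟩ := H42.sp_rank_bounds t ht' ht1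
  rw [hs] at hsm
  obtain ⟨r, rfl⟩ : ∃ r, m = s + r := ⟨m - s, by omega⟩
  obtain ⟨k, rfl⟩ := heven
  obtain ⟨B, C, hB, hBC, hcard, halt', hdiag⟩ := transfer
    (Fintype.equivFinOfCardEq (by simp : Fintype.card (Fin k ⊕ Fin k) = k + k))
    (J (Fin k) F) (J (Fin k) F) (by rw [J_transpose, neg_J_char2]) (J_mul_J_char2 k)
  have htype : (∀ v, sympForm (k + k + r) F v (t.1 *ᵥ v) = 0) ↔
      (∀ y : Fin (k + k) → F, y ⬝ᵥ B *ᵥ y = 0) := by
    constructor
    · intro _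
      exact halt'.mpr (fun y => H17.sympForm_self k y)
    · intro _
      exact halt
  rw [card_cent_of_model hF B C hB hBC t ht' hs htype, hcard, card_isom_J, SpCard.card_sp hF k,
    Fin.prod_univ_eq_prod_range (fun i => q ^ (2 * (i + 1)) - 1) ((k + k) / 2),
    Fin.prod_univ_eq_prod_range (fun i => q ^ (2 * (i + 1)) - 1) (k + k + r - (k + k)),
    expo_ab]
  have e1 : (k + k) / 2 = k := by omega
  have e2 : k + k + r - (k + k) = r := by omega
  rw [e1, e2, pow_add]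
  ring

/-- Type `c_s` (`s` even, non-alternating). -/
theorem card_cent_c (hF : Fintype.card F = q) {m s : ℕ}
    (t : Matrix.symplecticGroup (Fin m) F) (ht : t ^ 2 = 1)
    (hs : ((t : Matrix (Fin m ⊕ Fin m) (Fin m ⊕ Fin m) F) - 1).rank = s) (heven : Even s)
    (hna : ∃ v : Fin m ⊕ Fin m → F, Cfsg.sympForm m F v
      ((t : Matrix (Fin m ⊕ Fin m) (Fin m ⊕ Fin m) F).mulVec v) ≠ 0) :
    Nat.card ↥(Subgroup.centralizer ({t} : Set ↥(Matrix.symplecticGroup (Fin m) F))) =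
      q ^ (2 * m * s - (3 * s ^ 2 - 3 * s) / 2 - 1) *
        ((q : ℕ) ^ (((s - 2) / 2) ^ 2) * ∏ i : Fin ((s - 2) / 2), (q ^ (2 * ((i : ℕ) + 1)) - 1)) *
        ((q : ℕ) ^ ((m - s) ^ 2) * ∏ i : Fin (m - s), (q ^ (2 * ((i : ℕ) + 1)) - 1)) := by
  have ht' : t.1 * t.1 = 1 := by
    have := congrArg Subtype.val ht
    rw [pow_two] at this
    exact this
  have ht1 : t ≠ 1 := by
    rintro rfl
    obtain ⟨v, hv⟩ := hna
    apply hv
    show sympForm m F v ((1 : Matrix (Fin m ⊕ Fin m) (Fin m ⊕ Fin m) F) *ᵥ v) = 0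
    rw [Matrix.one_mulVec, H17.sympForm_self]
  obtain ⟨hs1, hsm⟩ := H42.sp_rank_bounds t ht' ht1
  rw [hs] at hsm hs1
  obtain ⟨r, rfl⟩ : ∃ r, m = s + r := ⟨m - s, by omega⟩
  obtain ⟨k', rfl⟩ := heven
  obtain ⟨k, rfl⟩ : ∃ k, k' = k + 1 := ⟨k' - 1, by omega⟩
  have hc : (Pi.single (Sum.inl 0) 1 : Fin (k + 1) ⊕ Fin (k + 1) → F) ≠ 0 := by
    intro h
    have := congrFun h (Sum.inl 0)
    simp at this
  obtain ⟨B, C, hB, hBC, hcard, halt', hdiag⟩ := transfer
    (Fintype.equivFinOfCardEq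
      (by simp : Fintype.card (Fin (k + 1) ⊕ Fin (k + 1)) = k + 1 + (k + 1)))
    (Bc (Pi.single (Sum.inl 0) 1 : Fin (k + 1) ⊕ Fin (k + 1) → F))
    (Bc (J (Fin (k + 1)) F *ᵥ (Pi.single (Sum.inl 0) 1 : Fin (k + 1) ⊕ Fin (k + 1) → F)))
    (Bc_transpose _) (Bc_mul_inv _)
  have htype : (∀ v, sympForm (k + 1 + (k + 1) + r) F v (t.1 *ᵥ v) = 0) ↔
      (∀ y : Fin (k + 1 + (k + 1)) → F, y ⬝ᵥ B *ᵥ y = 0) := by
    constructor
    · intro h
      obtain ⟨v, hv⟩ := hna
      exact absurd (h v) hv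
    · intro h
      have hd := hdiag (Sum.inl 0)
      rw [Bc_diag] at hd
      exact absurd h (not_alt_of_diag B _ (by rw [hd]; simp))
  rw [card_cent_of_model hF B C hB hBC t ht' hs htype, hcard, card_isom_Bc hF k _ hc,
    Fin.prod_univ_eq_prod_range (fun i => q ^ (2 * (i + 1)) - 1) ((k + 1 + (k + 1) - 2) / 2),
    Fin.prod_univ_eq_prod_range (fun i => q ^ (2 * (i + 1)) - 1)
      (k + 1 + (k + 1) + r - (k + 1 + (k + 1))),
    expo_c _ _ (by omega)]
  have e1 : (k + 1 + (k + 1) - 2) / 2 = k := by omega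
  have e2 : k + 1 + (k + 1) + r - (k + 1 + (k + 1)) = r := by omega
  have e3 : k + 1 + (k + 1) - 1 = 2 * (k + 1) - 1 := by omega
  rw [e1, e2, e3, pow_add, pow_add]
  ring

end Final

end Cfsg.Agent.H50.InvCent
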