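import Mathlib

set_option autoImplicit false

namespace Cfsg.Agent.H50.Lang

open Polynomial

variable {K : Type*} [Field K]

/-- The recursively defined additive polynomials of the cyclic-vector argument. -/
noncomputable def dPoly (q : ℕ) (a : ℕ → K) : ℕ → K[X]
  | 0 => C (a 0) * X ^ q
  | (i + 1) => (dPoly q a i) ^ q + C (a (i + 1)) * X ^ q

theorem dPoly_zero (q : ℕ) (a : ℕ → K) : dPoly q a 0 = C (a 0) * X ^ q := rfl

theorem dPoly_succ (q : ℕ) (a : ℕ → K) (i : ℕ) :
    dPoly q a (i + 1) = (dPoly q a i) ^ q + C (a (i + 1)) * X ^ q := rfl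

theorem X_pow_dvd_dPoly (q : ℕ) (hq : 2 ≤ q) (a : ℕ → K) (i : ℕ) : X ^ q ∣ dPoly q a i := by
  induction i with
  | zero => exact Dvd.intro_left _ rfl
  | succ n ih =>
    rw [dPoly_succ]
    apply dvd_add
    · exact dvd_trans ih (dvd_pow_self _ (by omega))
    · exact Dvd.intro_left _ rfl

theorem dPoly_ne_zero (q : ℕ) (hq : 2 ≤ q) (a : ℕ → K) (i : ℕ) (h : ∃ j ≤ i, a j ≠ 0) :
    dPoly q a i ≠ 0 := by
  induction i with
  | zero =>
    obtain ⟨j, hj, hja⟩ := h
    have : j = 0 := by omega
    subst this
    rw [dPoly_zero]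
    exact mul_ne_zero (C_ne_zero.2 hja) (pow_ne_zero _ X_ne_zero)
  | succ n ih =>
    rw [dPoly_succ]
    by_cases hd : dPoly q a n = 0
    · have hall : ∀ j ≤ n, a j = 0 := by
        by_contra hc
        push Not at hc
        exact ih hc hd
      obtain ⟨j, hj, hja⟩ := h
      have : j = n + 1 := by
        by_contra hne
        exact hja (hall j (by omega))
      subst this
      rw [hd, zero_pow (by omega), zero_add]
      exact mul_ne_zero (C_ne_zero.2 hja) (pow_ne_zero _ X_ne_zero)
    · have hdeg : q ≤ (dPoly q a n).natDegree := by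
        have := Polynomial.natDegree_le_of_dvd (X_pow_dvd_dPoly q hq a n) hd
        simpa using this
      intro h0
      have h1 : (dPoly q a n) ^ q = - (C (a (n + 1)) * X ^ q) := eq_neg_of_add_eq_zero_left h0
      have h2 := congrArg natDegree h1
      rw [natDegree_pow, natDegree_neg] at h2
      have h3 : (C (a (n + 1)) * X ^ q).natDegree ≤ q := natDegree_C_mul_X_pow_le _ _
      nlinarith

variable [IsAlgClosed K]

/-- An injective Frobenius-semilinear endomorphism of a nonzero finite-dimensional vector space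
over an algebraically closed field has a nonzero fixed vector. -/
theorem exists_fixed_ne_zero (q : ℕ) (hq : 2 ≤ q) (σ : K →+* K) (hσ : ∀ x, σ x = x ^ q)
    {U : Type*} [AddCommGroup U] [Module K U] [FiniteDimensional K U] [Nontrivial U]
    (φ : U →ₛₗ[σ] U) (hφ : Function.Injective φ) : ∃ v : U, v ≠ 0 ∧ φ v = v := by
  obtain ⟨u, hu⟩ := exists_ne (0 : U)
  let e : ℕ → U := fun i => (⇑φ)^[i] u
  have he_succ : ∀ i, φ (e i) = e (i + 1) := fun i => (Function.iterate_succ_apply' _ _ _).symm
  -- cyclic data
  obtain ⟨m, hli, hmem⟩ : ∃ m, LinearIndependent K (fun i : Fin m => e i) ∧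
      e m ∈ Submodule.span K (Set.range (fun i : Fin m => e i)) := by
    by_contra hcon
    push Not at hcon
    have hall : ∀ m, LinearIndependent K (fun i : Fin m => e i) := by
      intro m
      induction m with
      | zero => exact linearIndependent_empty_type
      | succ n ih =>
        have : (fun i : Fin (n + 1) => e i) = Fin.snoc (fun i : Fin n => e i) (e n) := by
          funext i
          refine Fin.lastCases ?_ (fun j => ?_) i <;> simp
        rw [this, linearIndependent_finSnoc]
        exact ⟨ih, hcon n ih⟩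
    have := (hall (Module.finrank K U + 1)).fintype_card_le_finrank
    simp at this
  obtain ⟨a0, ha0⟩ := (Submodule.mem_span_range_iff_exists_fun K).1 hmem
  have hm : m ≠ 0 := by
    rintro rfl
    simp at ha0
    exact hu ha0.symm
  obtain ⟨m', rfl⟩ := Nat.exists_eq_succ_of_ne_zero hm
  let a : ℕ → K := fun i => if h : i < m' + 1 then a0 ⟨i, h⟩ else 0
  have ha : ∑ i ∈ Finset.range (m' + 1), a i • e i = e (m' + 1) := by
    rw [← ha0, ← Fin.sum_univ_eq_sum_range (fun i => a i • e i)]
    refine Finset.sum_congr rfl fun i _ => ?_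
    have hi : (i : ℕ) < m' + 1 := i.2
    show a (i : ℕ) • e i = a0 i • e i
    have : a (i : ℕ) = a0 i := by
      show (if h : (i : ℕ) < m' + 1 then a0 ⟨i, h⟩ else 0) = a0 i
      rw [dif_pos hi]
    rw [this]
  have hane : ∃ j ≤ m', a j ≠ 0 := by
    by_contra hcon
    push Not at hcon
    have h0 : e (m' + 1) = 0 := by
      rw [← ha]
      apply Finset.sum_eq_zero
      intro i hi
      rw [hcon i (by simpa [Nat.lt_succ_iff] using hi), zero_smul]
    have hinj : Function.Injective ((⇑φ)^[m' + 1]) := hφ.iterate _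
    have hz : (⇑φ)^[m' + 1] 0 = 0 := Function.iterate_fixed (map_zero φ) _
    exact hu (hinj (h0.trans hz.symm))
  have hD := dPoly_ne_zero q hq a m' hane
  obtain ⟨h, hh⟩ := X_pow_dvd_dPoly q hq a m'
  have hh0 : h ≠ 0 := by
    rintro rfl
    rw [mul_zero] at hh
    exact hD hh
  have hdeg : (X ^ (q - 1) * h - 1 : K[X]).degree ≠ 0 := by
    have h1 : (0 : WithBot ℕ) < (X ^ (q - 1) * h : K[X]).degree := by
      rw [degree_mul, degree_X_pow, degree_eq_natDegree hh0]
      have : (0 : ℕ) < (q - 1) + h.natDegree := by omega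
      exact_mod_cast this
    rw [degree_sub_eq_left_of_degree_lt (by simpa using h1)]
    exact ne_of_gt h1
  obtain ⟨t, ht⟩ := IsAlgClosed.exists_root _ hdeg
  have ht' : t ^ (q - 1) * h.eval t = 1 := by
    simpa [sub_eq_zero] using ht
  have ht0 : t ≠ 0 := by
    rintro rfl
    rw [zero_pow (by omega), zero_mul] at ht'
    exact zero_ne_one ht'
  have hDt : (dPoly q a m').eval t = t := by
    rw [hh, eval_mul, eval_pow, eval_X]
    have hq' : q = (q - 1) + 1 := by omega
    calc t ^ q * h.eval t = t * (t ^ (q - 1) * h.eval t) := by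
          conv_lhs => rw [hq', pow_succ']
          ring
      _ = t := by rw [ht', mul_one]
  refine ⟨∑ i ∈ Finset.range (m' + 1), (dPoly q a i).eval t • e i, ?_, ?_⟩
  · intro h0
    rw [← Fin.sum_univ_eq_sum_range (fun i => (dPoly q a i).eval t • e i)] at h0
    have := Fintype.linearIndependent_iff.1 hli (fun i : Fin (m' + 1) => (dPoly q a i).eval t) h0
      (Fin.last m')
    simp only [Fin.val_last, hDt] at this
    exact ht0 this
  · rw [map_sum]
    simp only [LinearMap.map_smulₛₗ, hσ, he_succ]
    rw [Finset.sum_range_succ, hDt, ← ha,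
      Finset.sum_range_succ' (fun i => (dPoly q a i).eval t • e i),
      Finset.sum_range_succ' (fun i => a i • e i)]
    simp only [dPoly_succ, dPoly_zero, eval_add, eval_mul, eval_pow, eval_C, eval_X, add_smul,
      Finset.sum_add_distrib, smul_add, Finset.smul_sum, smul_smul]
    have : ∀ i, (t ^ q * a (i + 1)) • e (i + 1) = (a (i + 1) * t ^ q) • e (i + 1) := by
      intro i; rw [mul_comm]
    simp only [this, mul_comm (t ^ q) (a 0)]
    abel

/-- The fixed vectors of an injective Frobenius-semilinear endomorphism span the space. -/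
theorem span_fixed_eq_top (q : ℕ) (hq : 2 ≤ q) (σ : K →+* K) (hσ : ∀ x, σ x = x ^ q)
    {U : Type*} [AddCommGroup U] [Module K U] [FiniteDimensional K U]
    (φ : U →ₛₗ[σ] U) (hφ : Function.Injective φ) :
    Submodule.span K {v : U | φ v = v} = ⊤ := by
  set W := Submodule.span K {v : U | φ v = v} with hW
  have hsurj : ∀ c : K, ∃ d : K, σ d = c := by
    intro c
    obtain ⟨d, hd⟩ := IsAlgClosed.exists_pow_nat_eq c (by omega : 0 < q)
    exact ⟨d, by rw [hσ, hd]⟩
  have hAS : ∀ c : K, ∃ d : K, σ d - d = c := by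
    intro c
    have hdeg : (X ^ q - (X + C c) : K[X]).degree ≠ 0 := by
      have h1 : (X + C c : K[X]).degree < (X ^ q : K[X]).degree := by
        rw [degree_X_add_C, degree_X_pow]
        exact_mod_cast (by omega : 1 < q)
      rw [degree_sub_eq_left_of_degree_lt h1, degree_X_pow]
      exact_mod_cast (by omega : q ≠ 0)
    obtain ⟨d, hd⟩ := IsAlgClosed.exists_root _ hdeg
    refine ⟨d, ?_⟩
    have : d ^ q - (d + c) = 0 := by simpa using hd
    rw [hσ]
    linear_combination this
  have hWφ : W ≤ W.comap φ := by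
    rw [hW, Submodule.span_le]
    intro v hv
    show φ v ∈ Submodule.span K {v : U | φ v = v}
    have hv' : φ v = v := hv
    rw [hv']
    exact Submodule.subset_span hv
  have hpre : ∀ w ∈ W, ∃ w' ∈ W, φ w' = w := by
    intro w hw
    induction hw using Submodule.span_induction with
    | mem v hv => exact ⟨v, Submodule.subset_span hv, hv⟩
    | zero => exact ⟨0, W.zero_mem, map_zero φ⟩
    | add x y _ _ hx hy =>
      obtain ⟨x', hx', rfl⟩ := hx
      obtain ⟨y', hy', rfl⟩ := hy
      exact ⟨x' + y', W.add_mem hx' hy', map_add φ _ _⟩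
    | smul c x _ hx =>
      obtain ⟨x', hx', rfl⟩ := hx
      obtain ⟨d, rfl⟩ := hsurj c
      exact ⟨d • x', W.smul_mem d hx', by rw [LinearMap.map_smulₛₗ]⟩
  have hAS' : ∀ w ∈ W, ∀ c : K, ∃ w' ∈ W, φ w' - w' = c • w := by
    intro w hw
    induction hw using Submodule.span_induction with
    | mem v hv =>
      intro c
      obtain ⟨d, hd⟩ := hAS c
      have hv' : φ v = v := hv
      exact ⟨d • v, W.smul_mem d (Submodule.subset_span hv), by
        rw [LinearMap.map_smulₛₗ, hv', ← sub_smul, hd]⟩
    | zero => intro c; exact ⟨0, W.zero_mem, by simp⟩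
    | add x y _ _ hx hy =>
      intro c
      obtain ⟨x', hx', hx''⟩ := hx c
      obtain ⟨y', hy', hy''⟩ := hy c
      exact ⟨x' + y', W.add_mem hx' hy', by rw [map_add, smul_add, ← hx'', ← hy'']; abel⟩
    | smul a x _ hx =>
      intro c
      obtain ⟨x', hx', hx''⟩ := hx (c * a)
      exact ⟨x', hx', by rw [hx'', mul_smul]⟩
  by_contra hne
  have : Nontrivial (U ⧸ W) := (Submodule.Quotient.nontrivial_iff).2 hne
  let φbar : (U ⧸ W) →ₛₗ[σ] (U ⧸ W) := W.mapQ W φ hWφ
  have hinj : Function.Injective φbar := by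
    rw [injective_iff_map_eq_zero]
    intro x hx
    induction x using Submodule.Quotient.induction_on with
    | H v =>
      have hx' : φ v ∈ W := by
        have : φbar (Submodule.Quotient.mk v) = Submodule.Quotient.mk (φ v) := rfl
        rw [this] at hx
        exact (Submodule.Quotient.mk_eq_zero W).1 hx
      obtain ⟨w', hw', hw''⟩ := hpre _ hx'
      have : v = w' := (hφ hw'').symm
      rw [Submodule.Quotient.mk_eq_zero, this]
      exact hw'
  obtain ⟨vbar, hv0, hvfix⟩ := exists_fixed_ne_zero q hq σ hσ φbar hinj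
  induction vbar using Submodule.Quotient.induction_on with
  | H v =>
    have hmem : φ v - v ∈ W := by
      have : φbar (Submodule.Quotient.mk v) = Submodule.Quotient.mk (φ v) := rfl
      rw [this] at hvfix
      exact (Submodule.Quotient.eq W).1 hvfix
    obtain ⟨w', hw', hw''⟩ := hAS' _ hmem (-1)
    have hfix : φ (v + w') = v + w' := by
      have h1 : φ w' = w' + (-1 : K) • (φ v - v) := by rw [← hw'']; abel
      rw [map_add, h1, neg_one_smul]
      abel
    have hvw : v + w' ∈ W := Submodule.subset_span hfix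
    have hvW : v ∈ W := by
      have := W.sub_mem hvw hw'
      simpa using this
    exact hv0 ((Submodule.Quotient.mk_eq_zero W).2 hvW)

open Matrix in
/-- Lang–Steinberg for `GL_n` over an algebraically closed field of characteristic `p`, with the
`p ^ f`-power Frobenius. -/
theorem lang_GL (p : ℕ) [Fact p.Prime] [CharP K p] (f : ℕ) (hf : 1 ≤ f) (n : ℕ)
    (g : GL (Fin n) K) :
    ∃ x : GL (Fin n) K, g = x * (Matrix.GeneralLinearGroup.map (iterateFrobenius K p f) x)⁻¹ := by
  set σ : K →+* K := iterateFrobenius K p f with hσdef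
  have hσ : ∀ x, σ x = x ^ (p ^ f) := fun x => iterateFrobenius_def p f x
  have hq : 2 ≤ p ^ f := by
    have h2 : 2 ≤ p := (Fact.out : p.Prime).two_le
    calc 2 ≤ p := h2
      _ = p ^ 1 := (pow_one p).symm
      _ ≤ p ^ f := Nat.pow_le_pow_right (by omega) hf
  let φ : (Fin n → K) →ₛₗ[σ] (Fin n → K) :=
    { toFun := fun v => (g : Matrix (Fin n) (Fin n) K) *ᵥ (fun i => σ (v i))
      map_add' := by
        intro v w
        rw [← Matrix.mulVec_add]
        congr 1
        funext i
        simp
      map_smul' := by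
        intro c v
        rw [← Matrix.mulVec_smul]
        congr 1
        funext i
        simp }
  have hφapp : ∀ v, φ v = (g : Matrix (Fin n) (Fin n) K) *ᵥ (fun i => σ (v i)) := fun v => rfl
  have hφ : Function.Injective φ := by
    intro v w hvw
    rw [hφapp, hφapp] at hvw
    have h1 : (fun i => σ (v i)) = fun i => σ (w i) := by
      have := congrArg (fun z => (((g⁻¹ : GL (Fin n) K)).1 : Matrix (Fin n) (Fin n) K) *ᵥ z) hvw
      simp only [Matrix.mulVec_mulVec] at this
      rw [← Matrix.GeneralLinearGroup.coe_mul, inv_mul_cancel] at this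
      simpa using this
    funext i
    exact σ.injective (congrFun h1 i)
  have hspan := span_fixed_eq_top (p ^ f) hq σ hσ φ hφ
  obtain ⟨b, hb, -, hli⟩ :=
    Submodule.exists_fun_fin_finrank_span_eq K {v : Fin n → K | φ v = v}
  have hn : Module.finrank K (Submodule.span K {v : Fin n → K | φ v = v}) = n := by
    rw [hspan, finrank_top, Module.finrank_fin_fun]
  let b' : Fin n → (Fin n → K) := fun j => b (Fin.cast hn.symm j)
  have hb' : ∀ j, φ (b' j) = b' j := fun j => hb _
  have hli' : LinearIndependent K b' := hli.comp _ (Fin.cast_injective _)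
  let A : Matrix (Fin n) (Fin n) K := Matrix.of fun i j => b' j i
  have hA : IsUnit A := by
    rw [← Matrix.linearIndependent_cols_iff_isUnit]
    exact hli'
  obtain ⟨x, hx⟩ := hA
  refine ⟨x, ?_⟩
  have key : g * Matrix.GeneralLinearGroup.map σ x = x := by
    apply Units.ext
    ext i j
    have h1 := congrFun (hb' j) i
    rw [hφapp] at h1
    simp only [Units.val_mul, Matrix.mul_apply, Matrix.GeneralLinearGroup.map_apply]
    rw [hx]
    simpa [Matrix.mulVec, dotProduct, A] using h1
  rw [eq_mul_inv_iff_mul_eq]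
  exact key

end Cfsg.Agent.H50.Lang
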