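import Mathlib
import Cfsg.Agent.H50.InvCentMain
import Cfsg.Agent.H17.SpBlock

set_option autoImplicit false

/-! Parabolic subgroups of `Sp_{2m}(q)`: stabilisers of totally isotropic subspaces
(helper50). -/

namespace Cfsg.Agent.H50.SpParab

open Matrix Cfsg
open Cfsg.Agent.H50.SpCard Cfsg.Agent.H50.InvCent

section Base

variable {F : Type*} [Field F] {m : ℕ}

/-- Over a finite field, mapping a set into itself is enough to stabilise it. -/
theorem mem_stab_of_maps [Finite F] (g : ↥(Matrix.symplecticGroup (Fin m) F))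
    (S : Set (Fin m ⊕ Fin m → F)) (h : ∀ v ∈ S, g.1 *ᵥ v ∈ S) :
    g ∈ Cfsg.stabilizing (Cfsg.spToMat m F) S := by
  intro v
  show v ∈ S ↔ g.1 *ᵥ v ∈ S
  refine ⟨h v, fun hgv => ?_⟩
  let φ : S → S := fun v => ⟨g.1 *ᵥ v.1, h v.1 v.2⟩
  have hinj : Function.Injective φ := by
    intro a b hab
    have h1 : g.1 *ᵥ a.1 = g.1 *ᵥ b.1 := congrArg Subtype.val hab
    have h2 := congrArg (fun x => (g⁻¹ : ↥(Matrix.symplecticGroup (Fin m) F)).1 *ᵥ x) h1
    simp only [H17.sp_inv_mulVec'] at h2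
    exact Subtype.ext h2
  obtain ⟨w, hw⟩ := (Finite.injective_iff_surjective.mp hinj) ⟨g.1 *ᵥ v, hgv⟩
  have h1 : g.1 *ᵥ w.1 = g.1 *ᵥ v := congrArg Subtype.val hw
  have h2 := congrArg (fun x => (g⁻¹ : ↥(Matrix.symplecticGroup (Fin m) F)).1 *ᵥ x) h1
  simp only [H17.sp_inv_mulVec'] at h2
  rw [← h2]
  exact w.2

theorem mulVec_inr (g : Matrix (Fin m ⊕ Fin m) (Fin m ⊕ Fin m) F) (v : Fin m ⊕ Fin m → F)
    (i : Fin m) :
    (g *ᵥ v) (Sum.inr i) = (g.toBlocks₂₁ *ᵥ (v ∘ Sum.inl)) i + (g.toBlocks₂₂ *ᵥ (v ∘ Sum.inr)) i := by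
  conv_lhs => rw [← fromBlocks_toBlocks g, fromBlocks_mulVec]
  rfl

theorem mulVec_inl (g : Matrix (Fin m ⊕ Fin m) (Fin m ⊕ Fin m) F) (v : Fin m ⊕ Fin m → F)
    (i : Fin m) :
    (g *ᵥ v) (Sum.inl i) = (g.toBlocks₁₁ *ᵥ (v ∘ Sum.inl)) i + (g.toBlocks₁₂ *ᵥ (v ∘ Sum.inr)) i := by
  conv_lhs => rw [← fromBlocks_toBlocks g, fromBlocks_mulVec]
  rfl

/-- Upper block-triangular symplectic matrices with a condition on the top-left block. -/
theorem card_upper [Fintype F] (Pr : Matrix (Fin m) (Fin m) F → Prop) :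
    Nat.card {g : ↥(Matrix.symplecticGroup (Fin m) F) //
      g.1.toBlocks₂₁ = 0 ∧ Pr g.1.toBlocks₁₁} =
    Nat.card {P : GL (Fin m) F // Pr P.1} * Nat.card {M : Matrix (Fin m) (Fin m) F // Mᵀ = M} := by
  rw [← Nat.card_prod]
  symm
  have hPS : ∀ P : GL (Fin m) F, P.1 * ((P⁻¹ : GL (Fin m) F).1ᵀ)ᵀ = 1 := by
    intro P
    rw [transpose_transpose]
    exact P.mul_inv
  have hSP : ∀ P : GL (Fin m) F, (P⁻¹ : GL (Fin m) F).1ᵀ * P.1ᵀ = 1 := by
    intro P
    rw [← transpose_mul]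
    have : P.1 * (P⁻¹ : GL (Fin m) F).1 = 1 := P.mul_inv
    rw [this, transpose_one]
  let Ψ : {P : GL (Fin m) F // Pr P.1} × {M : Matrix (Fin m) (Fin m) F // Mᵀ = M} →
      {g : ↥(Matrix.symplecticGroup (Fin m) F) // g.1.toBlocks₂₁ = 0 ∧ Pr g.1.toBlocks₁₁} :=
    fun x => ⟨⟨fromBlocks x.1.1.1 (x.2.1 * (x.1.1⁻¹ : GL (Fin m) F).1ᵀ) 0
        (x.1.1⁻¹ : GL (Fin m) F).1ᵀ, by
      rw [mem_sp_upper_iff]
      refine ⟨hPS x.1.1, ?_⟩
      rw [Matrix.mul_assoc, hSP x.1.1, mul_one, transpose_mul, ← Matrix.mul_assoc,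
        hPS x.1.1, one_mul, x.2.2]⟩, by
      rw [toBlocks_fromBlocks₂₁, toBlocks_fromBlocks₁₁]
      exact ⟨rfl, x.1.2⟩⟩
  apply Nat.card_congr (Equiv.ofBijective Ψ ⟨?_, ?_⟩)
  · rintro ⟨⟨P, hP⟩, ⟨M, hM⟩⟩ ⟨⟨P', hP'⟩, ⟨M', hM'⟩⟩ h
    have h1 : fromBlocks P.1 (M * (P⁻¹ : GL (Fin m) F).1ᵀ) 0 (P⁻¹ : GL (Fin m) F).1ᵀ =
        fromBlocks P'.1 (M' * (P'⁻¹ : GL (Fin m) F).1ᵀ) 0 (P'⁻¹ : GL (Fin m) F).1ᵀ :=
      congrArg (fun x => x.1.1) h
    rw [fromBlocks_inj] at h1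
    obtain ⟨h2, h3, -, -⟩ := h1
    have h2' : P = P' := Units.ext h2
    subst h2'
    have h4 : M = M' := by
      have := congrArg (fun X => X * P.1ᵀ) h3
      simp only [Matrix.mul_assoc] at this
      rw [hSP P, mul_one, mul_one] at this
      exact this
    subst h4
    rfl
  · rintro ⟨⟨g, hg⟩, hR, hP⟩
    obtain ⟨P, Q, R, S, rfl⟩ : ∃ P Q R S, g = fromBlocks P Q R S :=
      ⟨_, _, _, _, (fromBlocks_toBlocks g).symm⟩
    rw [toBlocks_fromBlocks₂₁] at hR
    rw [toBlocks_fromBlocks₁₁] at hP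
    subst hR
    have hg' := hg
    rw [mem_sp_upper_iff] at hg'
    obtain ⟨h1, h2⟩ := hg'
    have h1' : Sᵀ * P = 1 := mul_eq_one_comm.mp h1
    let Pu : GL (Fin m) F := ⟨P, Sᵀ, h1, h1'⟩
    have hPu : (Pu⁻¹ : GL (Fin m) F).1ᵀ = S := by
      show (Sᵀ)ᵀ = S
      rw [transpose_transpose]
    have hM : (Q * Pᵀ)ᵀ = Q * Pᵀ := by
      rw [transpose_mul, transpose_transpose, h2]
    have h1'' : Pᵀ * S = 1 := by
      have := congrArg transpose h1'
      rw [transpose_mul, transpose_transpose, transpose_one] at this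
      exact this
    refine ⟨(⟨Pu, hP⟩, ⟨Q * Pᵀ, hM⟩), ?_⟩
    apply Subtype.ext
    apply Subtype.ext
    show fromBlocks P (Q * Pᵀ * (Pu⁻¹ : GL (Fin m) F).1ᵀ) 0 (Pu⁻¹ : GL (Fin m) F).1ᵀ =
      fromBlocks P Q 0 S
    rw [hPu, Matrix.mul_assoc, h1'', mul_one]

/-- The standard Lagrangian subspace. -/
def L0 (F : Type*) [Field F] (m : ℕ) : Submodule F (Fin m ⊕ Fin m → F) :=
  LinearMap.range (inlLin (F := F) (l := Fin m))

theorem mem_L0 (v : Fin m ⊕ Fin m → F) : v ∈ L0 F m ↔ ∀ i, v (Sum.inr i) = 0 := by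
  constructor
  · rintro ⟨y, rfl⟩ i
    rfl
  · intro h
    refine ⟨v ∘ Sum.inl, ?_⟩
    show Sum.elim (v ∘ Sum.inl) 0 = v
    ext (i | i)
    · rfl
    · exact (h i).symm

theorem finrank_L0 : Module.finrank F (L0 F m) = m := by
  rw [L0, LinearMap.finrank_range_of_inj, Module.finrank_fintype_fun_eq_card, Fintype.card_fin]
  intro y z h
  have h3 : Sum.elim y (0 : Fin m → F) = Sum.elim z 0 := h
  funext i
  exact congrFun h3 (Sum.inl i)

theorem L0_isotropic : ∀ u ∈ L0 F m, ∀ v ∈ L0 F m, sympForm m F u v = 0 := by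
  intro u hu v hv
  rw [mem_L0] at hu hv
  rw [H17.sympForm_eq_sum]
  simp [hu, hv]

/-- Mapping the standard Lagrangian into itself. -/
theorem maps_L0_iff (g : Matrix (Fin m ⊕ Fin m) (Fin m ⊕ Fin m) F) :
    (∀ v ∈ L0 F m, g *ᵥ v ∈ L0 F m) ↔ g.toBlocks₂₁ = 0 := by
  constructor
  · intro h
    ext i j
    have h1 := h (Sum.elim (Pi.single j 1) 0) ((mem_L0 _).mpr (fun i => rfl))
    rw [mem_L0] at h1
    have h2 := h1 i
    rw [mulVec_inr] at h2
    have e1 : (Sum.elim (Pi.single j (1 : F)) (0 : Fin m → F)) ∘ Sum.inl = Pi.single j 1 := rfl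
    have e2 : (Sum.elim (Pi.single j (1 : F)) (0 : Fin m → F)) ∘ Sum.inr = 0 := rfl
    rw [e1, e2, Matrix.mulVec_zero, Matrix.mulVec_single_one] at h2
    simpa using h2
  · intro h v hv
    rw [mem_L0] at hv ⊢
    intro i
    have e2 : v ∘ Sum.inr = 0 := by
      funext j
      exact hv j
    rw [mulVec_inr, h, e2, Matrix.mulVec_zero, Matrix.zero_mulVec]
    simp

theorem stab_L0_iff [Finite F] (g : ↥(Matrix.symplecticGroup (Fin m) F)) :
    g ∈ Cfsg.stabilizing (Cfsg.spToMat m F) (L0 F m : Set (Fin m ⊕ Fin m → F)) ↔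
      g.1.toBlocks₂₁ = 0 := by
  rw [← maps_L0_iff]
  constructor
  · intro h v hv
    exact (h v).mp hv
  · intro h
    exact mem_stab_of_maps g _ h

theorem card_stab_L0 [Fintype F] :
    Nat.card ↥(Cfsg.stabilizing (Cfsg.spToMat m F) (L0 F m : Set (Fin m ⊕ Fin m → F))) =
      Nat.card (GL (Fin m) F) * Nat.card {M : Matrix (Fin m) (Fin m) F // Mᵀ = M} := by
  have h1 := card_upper (F := F) (m := m) (fun _ => True)
  have h2 : Nat.card {P : GL (Fin m) F // True} = Nat.card (GL (Fin m) F) :=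
    Nat.card_congr (Equiv.subtypeUnivEquiv (fun _ => trivial))
  rw [h2] at h1
  rw [← h1]
  refine Nat.card_congr (Equiv.subtypeEquivRight ?_)
  intro g
  rw [stab_L0_iff]
  simp

end Base

section Pairs

variable {F : Type*} [Field F] [Fintype F] {q : ℕ}

/-- Counting hyperbolic pairs inside a subspace `K` with radical `R`. -/
theorem card_sub_pairs (hF : Fintype.card F = q) (n dK dR : ℕ)
    (K R : Submodule F (Fin n ⊕ Fin n → F)) (hRK : R ≤ K)
    (horth : (H17.sympBilin n F).orthogonal K = R)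
    (hfK : Module.finrank F K = dK) (hfR : Module.finrank F R = dR) :
    Nat.card {p : (Fin n ⊕ Fin n → F) × (Fin n ⊕ Fin n → F) //
      p.1 ∈ K ∧ p.2 ∈ K ∧ sympForm n F p.1 p.2 = 1} =
      (q ^ dK - q ^ dR) * q ^ (dK - 1) := by
  classical
  have hq : 2 ≤ q := by rw [← hF]; exact Fintype.one_lt_card
  have hcK : Nat.card K = q ^ dK := by
    rw [Module.natCard_eq_pow_finrank (K := F), hfK, Nat.card_eq_fintype_card, hF]
  have hcR : Nat.card R = q ^ dR := by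
    rw [Module.natCard_eq_pow_finrank (K := F), hfR, Nat.card_eq_fintype_card, hF]
  have h1 := Shin.card_rel
    (fun (u v : Fin n ⊕ Fin n → F) => u ∈ K ∧ v ∈ K ∧ sympForm n F u v = 1)
    (fun u => u ∈ K ∧ u ∉ R) (Fin (q ^ (dK - 1)))
    (fun u hu => by
      obtain ⟨huK, huR⟩ := hu
      let φ : K →ₗ[F] F := (H17.sympBilin n F u).comp K.subtype
      have hφ : φ ≠ 0 := by
        intro h0
        apply huR
        rw [← horth, LinearMap.BilinForm.mem_orthogonal_iff]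
        intro k hk
        have h2 : φ ⟨k, hk⟩ = 0 := by rw [h0]; rfl
        have h3 : H17.sympBilin n F u k = 0 := h2
        rw [H17.sympBilin_apply] at h3 ⊢
        rw [H17.sympForm_swap, h3, neg_zero]
      have h2 := SpCard.card_fibre_one φ hφ
      rw [hcK, hF] at h2
      have h3 : Nat.card {v : K // φ v = 1} = q ^ (dK - 1) := by
        rcases Nat.eq_zero_or_pos dK with h0 | h0
        · rw [h0, pow_zero] at h2
          have : q ∣ 1 := ⟨_, h2⟩
          have := Nat.le_of_dvd one_pos this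
          omega
        · have h4 : q ^ dK = q * q ^ (dK - 1) := by
            rw [← pow_succ']
            congr 1
            omega
          rw [h4] at h2
          exact (Nat.eq_of_mul_eq_mul_left (by omega) h2).symm
      refine ⟨Equiv.trans ?_ (Finite.equivFinOfCardEq h3)⟩
      exact
        { toFun := fun v => ⟨⟨v.1, v.2.2.1⟩, by
            show H17.sympBilin n F u v.1 = 1
            rw [H17.sympBilin_apply]
            exact v.2.2.2⟩
          invFun := fun w => ⟨w.1.1, huK, w.1.2, by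
            have h5 : H17.sympBilin n F u w.1.1 = 1 := w.2
            rw [H17.sympBilin_apply] at h5
            exact h5⟩
          left_inv := fun v => rfl
          right_inv := fun w => rfl })
    (fun u v h => by
      obtain ⟨hu, hv, huv⟩ := h
      refine ⟨hu, ?_⟩
      intro huR
      rw [← horth, LinearMap.BilinForm.mem_orthogonal_iff] at huR
      have h2 := huR v hv
      rw [H17.sympBilin_apply, H17.sympForm_swap, huv] at h2
      simp at h2)
  rw [h1, Nat.card_fin]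
  congr 1
  show Nat.card ↥((K : Set (Fin n ⊕ Fin n → F)) \ (R : Set (Fin n ⊕ Fin n → F))) = _
  rw [Nat.card_coe_set_eq, Set.ncard_sdiff (by exact hRK), ← Nat.card_coe_set_eq,
    ← Nat.card_coe_set_eq]
  exact congrArg₂ (· - ·) hcK hcR

/-- Hyperbolic pairs in the orthogonal complement of a totally isotropic subspace. -/
theorem card_perp_pairs (hF : Fintype.card F = q) (n k : ℕ)
    (W : Submodule F (Fin n ⊕ Fin n → F))
    (hW : ∀ u ∈ W, ∀ v ∈ W, sympForm n F u v = 0) (hk : Module.finrank F W = k) :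
    Nat.card {p : (Fin n ⊕ Fin n → F) × (Fin n ⊕ Fin n → F) //
      p.1 ∈ (H17.sympBilin n F).orthogonal W ∧ p.2 ∈ (H17.sympBilin n F).orthogonal W ∧
        sympForm n F p.1 p.2 = 1} =
      (q ^ (2 * n - k) - q ^ k) * q ^ (2 * n - k - 1) := by
  apply card_sub_pairs hF n (2 * n - k) k _ W
  · intro w hw
    rw [LinearMap.BilinForm.mem_orthogonal_iff]
    intro w' hw'
    rw [H17.sympBilin_apply]
    exact hW w' hw' w hw
  · exact LinearMap.BilinForm.orthogonal_orthogonal (H17.sympBilin_nondegenerate n)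
      (H17.sympBilin_isAlt n).isRefl W
  · rw [LinearMap.BilinForm.finrank_orthogonal (H17.sympBilin_nondegenerate n), hk,
      Module.finrank_fintype_fun_eq_card]
    simp
    ring_nf
  · exact hk

end Pairs

section Step

variable {F : Type*} [Field F] {m : ℕ}

theorem mem_map_emb (W : Submodule F (Fin m ⊕ Fin m → F)) (v : Fin (m + 1) ⊕ Fin (m + 1) → F) :
    v ∈ W.map (emb F m) ↔
      proj F m v ∈ W ∧ v (Sum.inl (Fin.last m)) = 0 ∧ v (Sum.inr (Fin.last m)) = 0 := by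
  constructor
  · rintro ⟨z, hz, rfl⟩
    exact ⟨by rw [proj_emb]; exact hz, emb_inl_last z, emb_inr_last z⟩
  · rintro ⟨h1, h2, h3⟩
    refine ⟨proj F m v, h1, ?_⟩
    conv_rhs => rw [decomp v]
    rw [h2, h3]
    simp

theorem sympForm_emb (z w : Fin m ⊕ Fin m → F) :
    sympForm (m + 1) F (emb F m z) (emb F m w) = sympForm m F z w := by
  rw [sympForm_succ, proj_emb, proj_emb, emb_inl_last, emb_inr_last, emb_inl_last]
  simp

variable [Fintype F] {q : ℕ}

/-- The stabiliser of an extended totally isotropic subspace. -/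
theorem card_stab_ext (hF : Fintype.card F = q) (W : Submodule F (Fin m ⊕ Fin m → F))
    (hW : ∀ u ∈ W, ∀ v ∈ W, sympForm m F u v = 0) (k : ℕ) (hk : Module.finrank F W = k) :
    Nat.card ↥(Cfsg.stabilizing (Cfsg.spToMat (m + 1) F)
        ((W.map (emb F m) : Submodule F (Fin (m + 1) ⊕ Fin (m + 1) → F)) :
          Set (Fin (m + 1) ⊕ Fin (m + 1) → F))) =
      (q ^ (2 * (m + 1) - k) - q ^ k) * q ^ (2 * (m + 1) - k - 1) *
        Nat.card ↥(Cfsg.stabilizing (Cfsg.spToMat m F) (W : Set (Fin m ⊕ Fin m → F))) := by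
  classical
  set W' := W.map (emb F m) with hW'
  have hW'iso : ∀ u ∈ W', ∀ v ∈ W', sympForm (m + 1) F u v = 0 := by
    rintro _ ⟨z, hz, rfl⟩ _ ⟨w, hw, rfl⟩
    rw [sympForm_emb]
    exact hW z hz w hw
  have hW'k : Module.finrank F W' = k := by
    rw [← hk]
    exact (Submodule.equivMapOfInjective (emb F m) emb_injective W).finrank_eq.symm
  set K := (H17.sympBilin (m + 1) F).orthogonal W' with hK
  have hKmem : ∀ u, u ∈ K ↔ ∀ w ∈ W', sympForm (m + 1) F w u = 0 := by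
    intro u
    rw [hK, LinearMap.BilinForm.mem_orthogonal_iff]
    simp only [H17.sympBilin_apply]
  set G' := Cfsg.stabilizing (Cfsg.spToMat (m + 1) F)
    (W' : Set (Fin (m + 1) ⊕ Fin (m + 1) → F)) with hG'
  have hGmem : ∀ g : ↥(Matrix.symplecticGroup (Fin (m + 1)) F),
      g ∈ G' ↔ ∀ v, v ∈ W' ↔ g.1 *ᵥ v ∈ W' := fun g => Iff.rfl
  let X := {p : (Fin (m + 1) ⊕ Fin (m + 1) → F) × (Fin (m + 1) ⊕ Fin (m + 1) → F) //
      p.1 ∈ K ∧ p.2 ∈ K ∧ sympForm (m + 1) F p.1 p.2 = 1}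
  have hpres : ∀ g : ↥G', ∀ u, u ∈ K → g.1.1 *ᵥ u ∈ K := by
    intro g u hu
    rw [hKmem] at hu ⊢
    intro w hw
    have h1 : (g.1⁻¹).1 *ᵥ w ∈ W' := ((hGmem _).mp (G'.inv_mem g.2) w).mp hw
    have h2 := hu _ h1
    rw [← H17.sp_form (m + 1) g.1, H17.sp_inv_mulVec] at h2
    exact h2
  let act : ↥G' → X → X := fun g p =>
    ⟨(g.1.1 *ᵥ p.1.1, g.1.1 *ᵥ p.1.2), hpres g _ p.2.1, hpres g _ p.2.2.1, by
      show sympForm (m + 1) F (g.1.1 *ᵥ p.1.1) (g.1.1 *ᵥ p.1.2) = 1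
      rw [H17.sp_form]
      exact p.2.2.2⟩
  let x₀ : X := ⟨(H17.fVec (m + 1) F (Fin.last m), H17.eVec (m + 1) F (Fin.last m)),
    (hKmem _).mpr (by
      rintro _ ⟨z, hz, rfl⟩
      rw [H17.sympForm_swap, sympForm_fVec_left, emb_inl_last, neg_zero]),
    (hKmem _).mpr (by
      rintro _ ⟨z, hz, rfl⟩
      rw [H17.sympForm_swap, sympForm_eVec_left, emb_inr_last, neg_zero, neg_zero]), by
      show sympForm (m + 1) F (H17.fVec (m + 1) F (Fin.last m))
        (H17.eVec (m + 1) F (Fin.last m)) = 1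
      rw [H17.sympForm_f_e]
      simp⟩
  have hle : Subgroup.closure (H17.transvSet (m + 1) K) ≤ G' := by
    intro A hA
    have hfix : ∀ B ∈ Subgroup.closure (H17.transvSet (m + 1) K), ∀ z ∈ W',
        B.1 *ᵥ z = z := by
      intro B hB z hz
      apply H17.closure_transvSet_fixes (m + 1) K B hB z
      intro w hw
      exact (hKmem w).mp hw z hz
    rw [hGmem]
    intro v
    constructor
    · intro hv
      rw [hfix A hA v hv]
      exact hv
    · intro hAv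
      have h1 := hfix A⁻¹ (Subgroup.inv_mem _ hA) _ hAv
      rw [H17.sp_inv_mulVec'] at h1
      rw [h1]
      exact hAv
  have h := SpCard.card_eq_card_mul_stab act
    (fun x => by
      apply Subtype.ext
      show ((1 : Matrix _ _ F) *ᵥ x.1.1, (1 : Matrix _ _ F) *ᵥ x.1.2) = x.1
      rw [Matrix.one_mulVec, Matrix.one_mulVec])
    (fun g h x => by
      apply Subtype.ext
      show ((g.1.1 * h.1.1) *ᵥ x.1.1, (g.1.1 * h.1.1) *ᵥ x.1.2) =
        (g.1.1 *ᵥ (h.1.1 *ᵥ x.1.1), g.1.1 *ᵥ (h.1.1 *ᵥ x.1.2))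
      rw [Matrix.mulVec_mulVec, Matrix.mulVec_mulVec])
    x₀
    (fun x => by
      obtain ⟨A, hA, h1, h2⟩ := H17.transv_pair (m + 1) K _ _ x.1.1 x.1.2
        x₀.2.1 x₀.2.2.1 x.2.1 x.2.2.1 x₀.2.2.2 x.2.2.2
      exact ⟨⟨A, hle hA⟩, Subtype.ext (Prod.ext h1 h2)⟩)
  rw [h, card_perp_pairs hF (m + 1) k W' hW'iso hW'k]
  congr 1
  symm
  let Φ : ↥(Cfsg.stabilizing (Cfsg.spToMat m F) (W : Set (Fin m ⊕ Fin m → F))) →
      {g : ↥G' // act g x₀ = x₀} := fun A =>
    ⟨⟨extSp A.1, by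
      rw [hGmem]
      intro v
      show v ∈ W' ↔ extMat A.1.1 *ᵥ v ∈ W'
      rw [hW', mem_map_emb, mem_map_emb, proj_extMat, extMat_inl_last, extMat_inr_last]
      have h1 : proj F m v ∈ W ↔ A.1.1 *ᵥ proj F m v ∈ W := A.2 (proj F m v)
      rw [h1]⟩,
     Subtype.ext (Prod.ext (extMat_fVec A.1.1) (extMat_eVec A.1.1))⟩
  apply Nat.card_congr (Equiv.ofBijective Φ ⟨?_, ?_⟩)
  · intro A B h
    exact Subtype.ext (extSp_injective (congrArg (fun x => x.1.1) h))
  · rintro ⟨⟨g, hg⟩, hfix⟩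
    have h1 : (g.1 *ᵥ H17.fVec (m + 1) F (Fin.last m), g.1 *ᵥ H17.eVec (m + 1) F (Fin.last m)) =
        (H17.fVec (m + 1) F (Fin.last m), H17.eVec (m + 1) F (Fin.last m)) :=
      congrArg Subtype.val hfix
    obtain ⟨A, hA⟩ := ext_of_fixes g.1 g.2 (congrArg Prod.fst h1) (congrArg Prod.snd h1)
    have hA' : extSp A = g := hA
    refine ⟨⟨A, ?_⟩, ?_⟩
    · intro z
      show z ∈ W ↔ A.1 *ᵥ z ∈ W
      have h2 := (hGmem g).mp hg (emb F m z)
      rw [← hA'] at h2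
      have h3 : (extSp A).1 = extMat A.1 := rfl
      rw [h3, hW', mem_map_emb, mem_map_emb, proj_extMat, extMat_inl_last, extMat_inr_last,
        proj_emb, emb_inl_last, emb_inr_last] at h2
      simpa using h2
    · apply Subtype.ext
      apply Subtype.ext
      exact hA'

end Step

section Final

variable {F : Type*} [Field F] {k : ℕ}

/-- Iterated extension of a subspace. -/
def Wit (W : Submodule F (Fin k ⊕ Fin k → F)) :
    (r : ℕ) → Submodule F (Fin (k + r) ⊕ Fin (k + r) → F)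
  | 0 => W
  | r + 1 => (Wit W r).map (emb F (k + r))

theorem Wit_isotropic (W : Submodule F (Fin k ⊕ Fin k → F))
    (hW : ∀ u ∈ W, ∀ v ∈ W, sympForm k F u v = 0) (r : ℕ) :
    ∀ u ∈ Wit W r, ∀ v ∈ Wit W r, sympForm (k + r) F u v = 0 := by
  induction r with
  | zero => exact hW
  | succ r ih =>
    rintro _ ⟨z, hz, rfl⟩ _ ⟨w, hw, rfl⟩
    exact (sympForm_emb z w).trans (ih z hz w hw)

theorem Wit_finrank (W : Submodule F (Fin k ⊕ Fin k → F)) (r : ℕ) :
    Module.finrank F (Wit W r) = Module.finrank F W := by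
  induction r with
  | zero => rfl
  | succ r ih =>
    rw [← ih]
    exact (Submodule.equivMapOfInjective (emb F (k + r)) emb_injective (Wit W r)).finrank_eq.symm

/-- Witt: `Sp` is transitive on totally isotropic subspaces of a given dimension. -/
theorem exists_sp_map_ti {m : ℕ} (W W' : Submodule F (Fin m ⊕ Fin m → F))
    (hfin : Module.finrank F W = Module.finrank F W')
    (hW : ∀ u ∈ W, ∀ v ∈ W, sympForm m F u v = 0)
    (hW' : ∀ u ∈ W', ∀ v ∈ W', sympForm m F u v = 0) :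
    ∃ g : ↥(Matrix.symplecticGroup (Fin m) F), ∀ v,
      v ∈ (W : Set (Fin m ⊕ Fin m → F)) ↔
        (Cfsg.spToMat m F g) *ᵥ v ∈ (W' : Set (Fin m ⊕ Fin m → F)) := by
  classical
  let φ : W ≃ₗ[F] W' := LinearEquiv.ofFinrankEq W W' hfin
  obtain ⟨f, hf1, hf2⟩ := H17.exists_extend_equiv W W' φ
  obtain ⟨g, hg, hgW⟩ := H17.witt_alt (H17.sympBilin m F) (H17.sympBilin_nondegenerate m)
    (H17.sympBilin_isAlt m) W f (by
      intro x hx x' hx'
      rw [H17.sympBilin_apply, H17.sympBilin_apply, hf1 ⟨x, hx⟩, hf1 ⟨x', hx'⟩,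
        hW x hx x' hx']
      exact hW' _ (φ ⟨x, hx⟩).2 _ (φ ⟨x', hx'⟩).2) hf2
  refine ⟨⟨LinearMap.toMatrix' (g : (Fin m ⊕ Fin m → F) →ₗ[F] (Fin m ⊕ Fin m → F)), ?_⟩, ?_⟩
  · rw [H17.mem_symplecticGroup_iff_form]
    intro x y
    rw [LinearMap.toMatrix'_mulVec, LinearMap.toMatrix'_mulVec]
    have h7 := hg x y
    rwa [H17.sympBilin_apply, H17.sympBilin_apply] at h7
  · intro v
    show v ∈ W ↔
      LinearMap.toMatrix' (g : (Fin m ⊕ Fin m → F) →ₗ[F] (Fin m ⊕ Fin m → F)) *ᵥ v ∈ W'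
    rw [LinearMap.toMatrix'_mulVec, LinearEquiv.coe_coe]
    constructor
    · intro hv
      rw [hgW v hv, hf1 ⟨v, hv⟩]
      exact (φ ⟨v, hv⟩).2
    · intro hgv
      obtain ⟨x, hx⟩ := φ.surjective ⟨g v, hgv⟩
      have h5 : g (x : Fin m ⊕ Fin m → F) = g v := by
        rw [hgW _ x.2, hf1 x, hx]
      rw [← g.injective h5]
      exact x.2

variable [Fintype F] {q : ℕ}

theorem card_stab_Wit (hF : Fintype.card F = q) (W : Submodule F (Fin k ⊕ Fin k → F))
    (hW : ∀ u ∈ W, ∀ v ∈ W, sympForm k F u v = 0) (hk : Module.finrank F W = k) (r : ℕ) :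
    Nat.card ↥(Cfsg.stabilizing (Cfsg.spToMat (k + r) F)
        (Wit W r : Set (Fin (k + r) ⊕ Fin (k + r) → F))) =
      q ^ (2 * k * r) * (q ^ (r ^ 2) * ∏ i ∈ Finset.range r, (q ^ (2 * (i + 1)) - 1)) *
        Nat.card ↥(Cfsg.stabilizing (Cfsg.spToMat k F) (W : Set (Fin k ⊕ Fin k → F))) := by
  induction r with
  | zero => simp [Wit]
  | succ r ih =>
    have h1 := card_stab_ext hF (Wit W r) (Wit_isotropic W hW r) k
      ((Wit_finrank W r).trans hk)
    refine h1.trans ?_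
    rw [ih, Finset.prod_range_succ]
    have hq : 1 ≤ q := by rw [← hF]; exact Fintype.card_pos
    have e1 : q ^ (2 * (k + r + 1) - k) - q ^ k = q ^ k * (q ^ (2 * (r + 1)) - 1) := by
      have : 2 * (k + r + 1) - k = k + 2 * (r + 1) := by omega
      rw [this, pow_add, Nat.mul_sub_one]
    have e2 : 2 * (k + r + 1) - k - 1 = k + 2 * r + 1 := by omega
    rw [e1, e2]
    have e3 : q ^ (2 * k * (r + 1)) * q ^ ((r + 1) ^ 2) =
        q ^ k * q ^ (k + 2 * r + 1) * (q ^ (2 * k * r) * q ^ (r ^ 2)) := by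
      rw [← pow_add, ← pow_add, ← pow_add, ← pow_add]
      congr 1
      ring
    calc q ^ k * (q ^ (2 * (r + 1)) - 1) * q ^ (k + 2 * r + 1) *
          (q ^ (2 * k * r) * (q ^ (r ^ 2) * ∏ i ∈ Finset.range r, (q ^ (2 * (i + 1)) - 1)) *
            Nat.card ↥(Cfsg.stabilizing (Cfsg.spToMat k F) (W : Set (Fin k ⊕ Fin k → F))))
        = (q ^ k * q ^ (k + 2 * r + 1) * (q ^ (2 * k * r) * q ^ (r ^ 2))) *
          ((∏ i ∈ Finset.range r, (q ^ (2 * (i + 1)) - 1)) * (q ^ (2 * (r + 1)) - 1)) *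
            Nat.card ↥(Cfsg.stabilizing (Cfsg.spToMat k F) (W : Set (Fin k ⊕ Fin k → F))) := by
          ring
      _ = _ := by rw [← e3]; ring

/-- The order of a maximal parabolic subgroup of `Sp_{2m}(q)`. -/
theorem card_stab_ti (hF : Fintype.card F = q) (m k : ℕ) (hk : k ≤ m)
    (W : Submodule F (Fin m ⊕ Fin m → F)) (hWk : Module.finrank F W = k)
    (hW : ∀ u ∈ W, ∀ v ∈ W, Cfsg.sympForm m F u v = 0) :
    Nat.card ↥(Cfsg.stabilizing (Cfsg.spToMat m F) (W : Set (Fin m ⊕ Fin m → F))) =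
      q ^ (k * (k + 1) / 2 + 2 * k * (m - k)) *
        (q ^ ((m - k) ^ 2) * ∏ i ∈ Finset.range (m - k), (q ^ (2 * (i + 1)) - 1)) *
        ∏ i : Fin k, (q ^ k - q ^ (i : ℕ)) := by
  obtain ⟨r, rfl⟩ : ∃ r, m = k + r := ⟨m - k, by omega⟩
  obtain ⟨g, hg⟩ := exists_sp_map_ti (Wit (L0 F k) r) W
    (by rw [Wit_finrank, finrank_L0, hWk]) (Wit_isotropic _ L0_isotropic r) hW
  have heq := H17.stabilizing_map_conj (Cfsg.spToMat (k + r) F) _ _ g hg
  rw [← heq, Subgroup.card_map_of_injective (MulAut.conj g).injective,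
    card_stab_Wit hF (L0 F k) L0_isotropic finrank_L0 r, card_stab_L0, card_sym,
    Matrix.card_GL_field, hF, Fintype.card_fin, Nat.add_sub_cancel_left, Nat.choose_two_right,
    Nat.add_sub_cancel, mul_comm (k + 1) k, pow_add]
  ring

end Final

end Cfsg.Agent.H50.SpParab
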