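import Mathlib
import Cfsg.Agent.H50.SpParab
import Cfsg.Agent.S0769

set_option autoImplicit false

/-! The Borel subgroup of `Sp_{2m}(q)` (helper50). -/

namespace Cfsg.Agent.H50.SpParab

open Matrix Cfsg
open Cfsg.Agent.H50.SpCard Cfsg.Agent.H50.InvCent

section Borel

variable {F : Type*} [Field F] {m : ℕ}

/-- Transposition on `GL`. -/
def glT : GL (Fin m) F ≃ GL (Fin m) F where
  toFun P := ⟨P.1ᵀ, (P⁻¹ : GL (Fin m) F).1ᵀ, by
    rw [← transpose_mul]
    have : (P⁻¹ : GL (Fin m) F).1 * P.1 = 1 := P.inv_mul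
    rw [this, transpose_one], by
    rw [← transpose_mul]
    have : P.1 * (P⁻¹ : GL (Fin m) F).1 = 1 := P.mul_inv
    rw [this, transpose_one]⟩
  invFun P := ⟨P.1ᵀ, (P⁻¹ : GL (Fin m) F).1ᵀ, by
    rw [← transpose_mul]
    have : (P⁻¹ : GL (Fin m) F).1 * P.1 = 1 := P.inv_mul
    rw [this, transpose_one], by
    rw [← transpose_mul]
    have : P.1 * (P⁻¹ : GL (Fin m) F).1 = 1 := P.mul_inv
    rw [this, transpose_one]⟩
  left_inv P := Units.ext (transpose_transpose _)
  right_inv P := Units.ext (transpose_transpose _)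

theorem card_upper_GL [Fintype F] {q : ℕ} (hF : Fintype.card F = q) :
    Nat.card {P : GL (Fin m) F // ∀ i j : Fin m, j < i → P.1 i j = 0} =
      q ^ (m * (m - 1) / 2) * (q - 1) ^ m := by
  rw [← Cfsg.Agent.S0769.result hF m]
  refine Nat.card_congr (Equiv.subtypeEquiv glT ?_)
  intro P
  constructor
  · intro h i j hij
    exact h j i hij
  · intro h i j hij
    exact h j i hij

/-- The flag subspaces. -/
def flagSet (F : Type*) [Field F] (m : ℕ) (k : Fin m) : Set (Fin m ⊕ Fin m → F) :=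
  {v : Fin m ⊕ Fin m → F | (∀ i : Fin m, (k : ℕ) < (i : ℕ) → v (Sum.inl i) = 0) ∧
    ∀ i : Fin m, v (Sum.inr i) = 0}

theorem mem_borel_iff [Finite F] (g : ↥(Matrix.symplecticGroup (Fin m) F)) :
    g ∈ (⨅ k : Fin m, Cfsg.stabilizing (Cfsg.spToMat m F) (flagSet F m k)) ↔
      g.1.toBlocks₂₁ = 0 ∧ ∀ i j : Fin m, j < i → g.1.toBlocks₁₁ i j = 0 := by
  rw [Subgroup.mem_iInf]
  have e1 : ∀ j : Fin m, (Sum.elim (Pi.single j (1 : F)) (0 : Fin m → F)) ∘ Sum.inl =
      Pi.single j 1 := fun j => rfl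
  have e2 : ∀ j : Fin m, (Sum.elim (Pi.single j (1 : F)) (0 : Fin m → F)) ∘ Sum.inr = 0 :=
    fun j => rfl
  constructor
  · intro h
    constructor
    · ext i j
      have hm : 0 < m := Fin.pos i
      have h1 := (h ⟨m - 1, by omega⟩ (Sum.elim (Pi.single j 1) 0)).mp
        ⟨fun i' hi' => by
          have := i'.2
          simp only at hi'
          omega, fun i' => rfl⟩
      have h2 := h1.2 i
      change (g.1 *ᵥ Sum.elim (Pi.single j 1) 0) (Sum.inr i) = 0 at h2
      rw [mulVec_inr, e1, e2, Matrix.mulVec_zero, Matrix.mulVec_single_one] at h2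
      simpa using h2
    · intro i j hij
      have h1 := (h j (Sum.elim (Pi.single j 1) 0)).mp
        ⟨fun i' hi' => by
          have hne : i' ≠ j := by
            intro h0
            rw [h0] at hi'
            exact lt_irrefl _ hi'
          simp [hne], fun i' => rfl⟩
      have h2 := h1.1 i hij
      change (g.1 *ᵥ Sum.elim (Pi.single j 1) 0) (Sum.inl i) = 0 at h2
      rw [mulVec_inl, e1, e2, Matrix.mulVec_zero, Matrix.mulVec_single_one] at h2
      simpa using h2
  · rintro ⟨hR, hP⟩ k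
    apply mem_stab_of_maps
    rintro v ⟨hv1, hv2⟩
    have e3 : v ∘ Sum.inr = 0 := by
      funext j
      exact hv2 j
    constructor
    · intro i hi
      rw [mulVec_inl, e3, Matrix.mulVec_zero, Pi.zero_apply, add_zero]
      show ∑ j, g.1.toBlocks₁₁ i j * v (Sum.inl j) = 0
      apply Finset.sum_eq_zero
      intro j _
      by_cases hji : j < i
      · rw [hP i j hji, zero_mul]
      · rw [hv1 j (by
          have : (i : ℕ) ≤ (j : ℕ) := not_lt.mp hji
          omega), mul_zero]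
    · intro i
      rw [mulVec_inr, hR, e3, Matrix.mulVec_zero, Matrix.zero_mulVec]
      simp

theorem card_borel [Fintype F] {q : ℕ} (hF : Fintype.card F = q) (m : ℕ) :
    Nat.card ↥(⨅ k : Fin m, Cfsg.stabilizing (Cfsg.spToMat m F)
      {v : Fin m ⊕ Fin m → F | (∀ i : Fin m, (k : ℕ) < (i : ℕ) → v (Sum.inl i) = 0) ∧
        ∀ i : Fin m, v (Sum.inr i) = 0}) = q ^ (m ^ 2) * (q - 1) ^ m := by
  have h1 := card_upper (F := F) (m := m) (fun P => ∀ i j : Fin m, j < i → P i j = 0)
  rw [card_upper_GL hF, card_sym, hF, Fintype.card_fin] at h1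
  have h2 : Nat.card ↥(⨅ k : Fin m, Cfsg.stabilizing (Cfsg.spToMat m F) (flagSet F m k)) =
      Nat.card {g : ↥(Matrix.symplecticGroup (Fin m) F) //
        g.1.toBlocks₂₁ = 0 ∧ ∀ i j : Fin m, j < i → g.1.toBlocks₁₁ i j = 0} :=
    Nat.card_congr (Equiv.subtypeEquivRight mem_borel_iff)
  refine h2.trans (h1.trans ?_)
  have e : m * (m - 1) / 2 + (m + 1).choose 2 = m ^ 2 := by
    rw [Nat.choose_two_right, Nat.add_sub_cancel]
    rcases m with _ | n
    · simp
    · obtain ⟨c, hc⟩ := (Nat.even_mul_succ_self n).two_dvd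
      have h3 : (n + 1) * (n + 1 - 1) = 2 * c := by
        rw [Nat.add_sub_cancel, mul_comm]
        exact hc
      have h4 : (n + 1 + 1) * (n + 1) = 2 * (c + n + 1) := by
        have : (n + 1 + 1) * (n + 1) = n * (n + 1) + 2 * (n + 1) := by ring
        rw [this, hc]
        ring
      have h5 : (n + 1) ^ 2 = n * (n + 1) + n + 1 := by ring
      rw [h3, h4, Nat.mul_div_cancel_left _ two_pos, Nat.mul_div_cancel_left _ two_pos, h5, hc]
      omega
  rw [← e, pow_add]
  ring

end Borel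

end Cfsg.Agent.H50.SpParab
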